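import Mathlib
import Cfsg.Agent.H61.Con4
import Cfsg.Agent.H20.FX2
import Cfsg.Agent.H29.Dihedral
import Cfsg.Agent.H9.Dihedral

/-!
Elements of order five acting on small `2`-groups.
-/

set_option autoImplicit false
set_option linter.unusedSectionVars false

namespace Cfsg.Agent.H20.A5C

open Subgroup Cfsg.Agent.H69 Cfsg.Agent.H61

variable {G : Type*} [Group G] [Finite G]

theorem ncard_modEq {α : Type*} [Finite α] {p : ℕ} (hp : p.Prime) (f : α → α)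
    (hf : ∀ x, f^[p] x = x) (S : Set α) (hS : ∀ x ∈ S, f x ∈ S) :
    S.ncard ≡ {x ∈ S | f x = x}.ncard [MOD p] := by
  classical
  have := Fintype.ofFinite S
  have := Fact.mk hp
  let g : Function.End S := fun v => ⟨f v, hS v v.2⟩
  have h1 : ∀ (i : ℕ) (v : S), ((g ^ i) v : α) = f^[i] v := fun i v => by
    induction i with
    | zero => rfl
    | succ i ih =>
      rw [pow_succ', Function.iterate_succ_apply']
      change f ((g ^ i) v : α) = _
      rw [ih]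
  have h2 := Equiv.Perm.card_fixedPoints_modEq (f := g) (p := p) (n := 1)
    (funext fun v => Subtype.ext (by rw [h1, pow_one, hf]; rfl))
  rw [← Nat.card_eq_fintype_card, ← Nat.card_eq_fintype_card, Nat.card_coe_set_eq] at h2
  have e : g.fixedPoints ≃ {x ∈ S | f x = x} :=
    { toFun := fun v => ⟨v.1.1, v.1.2, congrArg Subtype.val v.2⟩
      invFun := fun v => ⟨⟨v.1, v.2.1⟩, Subtype.ext v.2.2⟩
      left_inv := fun _ => rfl
      right_inv := fun _ => rfl }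
  rwa [Nat.card_congr e, Nat.card_coe_set_eq] at h2

theorem conj_iter (g x : G) (i : ℕ) : (fun y => g * y * g⁻¹)^[i] x = g ^ i * x * (g ^ i)⁻¹ := by
  induction i with
  | zero => simp
  | succ i ih => rw [Function.iterate_succ_apply', ih, pow_succ']; group

theorem ncard_modEq_conj {p : ℕ} (hp : p.Prime) {g : G} (hg : g ^ p = 1) (S : Set G)
    (hS : ∀ x ∈ S, g * x * g⁻¹ ∈ S) : S.ncard ≡ {x ∈ S | g * x * g⁻¹ = x}.ncard [MOD p] :=
  ncard_modEq hp (fun y => g * y * g⁻¹) (fun x => by rw [conj_iter, hg]; group) S hS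

theorem card_modEq_conj {p : ℕ} (hp : p.Prime) {g : G} (hg : g ^ p = 1) (V : Subgroup G)
    (hV : ∀ x ∈ V, g * x * g⁻¹ ∈ V) :
    Nat.card V ≡ Nat.card ↥(V ⊓ centralizer ({g} : Set G)) [MOD p] := by
  have := ncard_modEq_conj hp hg V hV
  rw [FX.ncard_coe] at this
  rw [← FX.ncard_coe (V ⊓ centralizer ({g} : Set G))]
  convert this using 2
  ext x
  exact ⟨fun h => ⟨h.1, mul_inv_eq_iff_eq_mul.2 (mem_centralizer_singleton_iff.1 h.2).symm⟩,
    fun h => ⟨h.1, mem_centralizer_singleton_iff.2 (mul_inv_eq_iff_eq_mul.1 h.2).symm⟩⟩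

theorem dvd16 {V : Subgroup G} (h2 : IsPGroup 2 V) (h : Nat.card V ≤ 16) :
    Nat.card V = 1 ∨ Nat.card V = 2 ∨ Nat.card V = 4 ∨ Nat.card V = 8 ∨ Nat.card V = 16 := by
  have := Fact.mk Nat.prime_two
  obtain ⟨k, hk⟩ := IsPGroup.iff_card.1 h2
  rw [hk] at h ⊢
  have : k < 5 := by
    by_contra hc
    have := Nat.pow_le_pow_right (n := 2) (by norm_num) (not_lt.1 hc)
    omega
  interval_cases k <;> simp

/-- dichotomy for an element of order five -/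
theorem E5 {σ : G} (h5 : σ ^ 5 = 1) {V : Subgroup G} (h2 : IsPGroup 2 V) (h16 : Nat.card V ≤ 16)
    (hi : ∀ v ∈ V, σ * v * σ⁻¹ ∈ V) : (∀ v ∈ V, σ * v * σ⁻¹ = v) ∨
      (Nat.card V = 16 ∧ ∀ v ∈ V, σ * v * σ⁻¹ = v → v = 1) := by
  have h1 := card_modEq_conj (by norm_num : Nat.Prime 5) h5 V hi
  have h3 : Nat.card ↥(V ⊓ centralizer ({σ} : Set G)) ≤ Nat.card V := card_le_of_le inf_le_left
  have h4 := dvd16 h2 h16
  have h6 := dvd16 (h2.to_le (inf_le_left : V ⊓ centralizer ({σ} : Set G) ≤ V)) (h3.trans h16)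
  unfold Nat.ModEq at h1
  by_cases h : Nat.card ↥(V ⊓ centralizer ({σ} : Set G)) = Nat.card V
  · left
    have := eq_of_le_of_card_ge (inf_le_left : V ⊓ centralizer ({σ} : Set G) ≤ V) h.ge
    intro v hv
    rw [← this] at hv
    rw [← mem_centralizer_singleton_iff.1 hv.2]; group
  · right
    refine ⟨by omega, fun v hv e => ?_⟩
    have h7 : V ⊓ centralizer ({σ} : Set G) = ⊥ := card_eq_one.1 (by omega)
    exact mem_bot.1 (h7 ▸ (⟨hv, mem_centralizer_singleton_iff.2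
      (mul_inv_eq_iff_eq_mul.1 e).symm⟩ : v ∈ V ⊓ centralizer ({σ} : Set G)))

theorem fix5 {σ x : G} (h5 : σ ^ 5 = 1) (h : σ ^ 2 * x * (σ ^ 2)⁻¹ = x) : σ * x * σ⁻¹ = x :=
  mul_inv_eq_iff_eq_mul.2 (mem_centralizer_singleton_iff.1 (Con.mem_of_coprime
    (H := centralizer {x}) (a := 2) (b := 5) (by norm_num)
    (mem_centralizer_singleton_iff.2 (mul_inv_eq_iff_eq_mul.1 h)) (h5 ▸ one_mem _)))

theorem fix_of_cent {σ m x : G} (h5 : σ ^ 5 = 1) (hm : m ^ 2 = 1) (hc : σ * m = m * σ)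
    (h : σ * x * σ⁻¹ * x⁻¹ ∈ zpowers m) : σ * x * σ⁻¹ = x := by
  rcases (Con.mem_zp hm).1 h with e | e
  · exact mul_inv_eq_one.1 e
  refine fix5 h5 ?_
  rw [mul_inv_eq_iff_eq_mul] at e
  calc σ ^ 2 * x * (σ ^ 2)⁻¹ = σ * (σ * x * σ⁻¹) * σ⁻¹ := by simp only [pow_two]; group
    _ = m * (σ * x * σ⁻¹) := by nth_rewrite 1 [e]; rw [← mul_assoc, hc]; group
    _ = x := by rw [e, ← mul_assoc, ← pow_two, hm, one_mul]

/-- an element inverting `σ` acts freely -/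
theorem free {σ t : G} (h5 : σ ^ 5 = 1) {V : Subgroup G} [hV : V.Normal]
    (h16 : Nat.card V = 16) (hsq : ∀ v ∈ V, v ^ 2 = 1) (hf : ∀ v ∈ V, σ * v * σ⁻¹ = v → v = 1)
    (ht : ∀ v ∈ V, t * σ * t⁻¹ * σ * v = v * (t * σ * t⁻¹ * σ))
    (ht2 : ∀ v ∈ V, t ^ 2 * v = v * t ^ 2) :
    Nat.card ↥(V ⊓ centralizer ({t} : Set G)) = 4 ∧
      ∀ c ∈ V, t * c = c * t → ∃ v ∈ V, v⁻¹ * t * v * t⁻¹ = c := by
  have hcm := Con.comm_of_sq hsq
  have h1 : Nat.card ↥(V ⊓ centralizer ({t} : Set G)) * Nat.card ↥(V ⊓ centralizer ({t} : Set G))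
      ≤ 16 := by
    let F : ↥(V ⊓ centralizer ({t} : Set G)) × ↥(V ⊓ centralizer ({t} : Set G)) → V := fun z =>
      ⟨z.1 * (σ * z.2 * σ⁻¹), V.mul_mem z.1.2.1 (hV.conj_mem _ z.2.2.1 σ)⟩
    have hF : Function.Injective F := by
      rintro ⟨a, b⟩ ⟨a', b'⟩ h
      have e : (a : G) * (σ * b * σ⁻¹) = a' * (σ * b' * σ⁻¹) := congrArg Subtype.val h
      have hd := mul_mem b'.2 (inv_mem b.2)
      have hc := mul_mem (inv_mem a'.2) a.2
      have e1 : (a' : G)⁻¹ * a = σ * (b' * (b : G)⁻¹) * σ⁻¹ := by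
        calc (a' : G)⁻¹ * a = (a' : G)⁻¹ * (a * (σ * b * σ⁻¹)) * (σ * b * σ⁻¹)⁻¹ := by group
          _ = _ := by rw [e]; group
      have e2 : (b' : G) * (b : G)⁻¹ = 1 := by
        generalize (b' : G) * (b : G)⁻¹ = d at hd e1
        rw [e1] at hc
        have c1 : d * t = t * d := mem_centralizer_singleton_iff.1 hd.2
        have c2 : σ * d * σ⁻¹ * t = t * (σ * d * σ⁻¹) := mem_centralizer_singleton_iff.1 hc.2
        have c3 := ht _ (hV.conj_mem d hd.1 σ⁻¹)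
        refine hf d hd.1 (fix5 h5 ?_)
        have c4 : σ * d * σ⁻¹ = σ⁻¹ * d * σ := by
          calc σ * d * σ⁻¹ = t * (σ * d * σ⁻¹) * t⁻¹ := by rw [← c2]; group
            _ = t * σ * t⁻¹ * (t * d) * σ⁻¹ * t⁻¹ := by group
            _ = (t * σ * t⁻¹ * σ * (σ⁻¹ * d * σ⁻¹⁻¹)) * (t * σ * t⁻¹ * σ)⁻¹ := by rw [← c1]; group
            _ = _ := by rw [c3]; group
        calc σ ^ 2 * d * (σ ^ 2)⁻¹ = σ * (σ * d * σ⁻¹) * σ⁻¹ := by simp only [pow_two]; group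
          _ = d := by rw [c4]; group
      rw [e2, mul_one, mul_inv_cancel, inv_mul_eq_one] at e1
      exact Prod.ext (Subtype.ext e1.symm) (Subtype.ext (mul_inv_eq_one.1 e2).symm)
    have := Nat.card_le_card_of_injective F hF
    rwa [Nat.card_prod, h16] at this
  have h2 := FX.card_le_delta t V V ((fun v => v⁻¹ * t * v * t⁻¹) '' V) (fun _ h => h)
    (fun a ha => ⟨a, ha, rfl⟩)
  rw [FX.ncard_coe, h16] at h2
  have hsub : ((fun v => v⁻¹ * t * v * t⁻¹) '' V) ⊆ (V ⊓ centralizer ({t} : Set G) : Subgroup G) := by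
    rintro _ ⟨v, hv, rfl⟩
    have h3 := hV.conj_mem v hv t
    have h4 : v⁻¹ * t * v * t⁻¹ ∈ V := by simpa only [mul_assoc] using V.mul_mem (V.inv_mem hv) h3
    refine ⟨h4, mem_centralizer_singleton_iff.2 ?_⟩
    have i1 : v⁻¹ = v := Con.inv_of_sq (hsq v hv)
    show v⁻¹ * t * v * t⁻¹ * t = t * (v⁻¹ * t * v * t⁻¹)
    rw [i1]
    calc v * t * v * t⁻¹ * t = (v * (t * v * t⁻¹)) * t := by group
      _ = t * v * t⁻¹ * (v * t ^ 2) * t⁻¹ := by rw [hcm v hv _ h3, pow_two]; group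
      _ = _ := by rw [← ht2 v hv, pow_two]; group
  have h3 := Set.ncard_le_ncard hsub
  rw [FX.ncard_coe] at h3
  have h4 : Nat.card ↥(V ⊓ centralizer ({t} : Set G)) = 4 := by nlinarith
  refine ⟨h4, fun c hc hct => ?_⟩
  have h5 := Set.eq_of_subset_of_ncard_le hsub (by rw [FX.ncard_coe, h4]; rw [h4] at h2; omega)
  have : c ∈ ((fun v => v⁻¹ * t * v * t⁻¹) '' V) :=
    h5 ▸ (⟨hc, mem_centralizer_singleton_iff.2 hct.symm⟩ : c ∈ V ⊓ centralizer ({t} : Set G))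
  obtain ⟨v, hv, e⟩ := this
  exact ⟨v, hv, e⟩

/-- invariant functions take at most two values -/
theorem three_vals {α : Type*} {σ s : G} (h5 : σ ^ 5 = 1) (h3 : s ^ 3 = 1) {V : Subgroup G}
    [hV : V.Normal] (h2 : IsPGroup 2 V) (h16 : Nat.card V = 16)
    (hf : ∀ v ∈ V, σ * v * σ⁻¹ = v → v = 1) (q : G → α)
    (hq : ∀ g : G, ∀ v ∈ V, q (g * v * g⁻¹) = q v) {a b c : G} (ha : a ∈ V) (hb : b ∈ V)
    (hc : c ∈ V) (a1 : a ≠ 1) (b1 : b ≠ 1) (c1 : c ≠ 1) (hab : q a ≠ q b) (hac : q a ≠ q c)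
    (hbc : q b ≠ q c) : ∀ v ∈ V, s * v * s⁻¹ = v := by
  let L : G → Set G := fun a => {x | x ∈ V ∧ x ≠ 1 ∧ q x = q a}
  have hL : ∀ a g : G, ∀ x ∈ L a, g * x * g⁻¹ ∈ L a := fun a g x hx =>
    ⟨hV.conj_mem x hx.1 g, fun e => hx.2.1 (by simpa using e), (hq g x hx.1).trans hx.2.2⟩
  have l5 : ∀ a ∈ V, a ≠ 1 → 5 ≤ (L a).ncard ∧ (L a).ncard % 5 = 0 := by
    intro a ha a1
    have h1 := ncard_modEq_conj (by norm_num : Nat.Prime 5) h5 (L a) (hL a σ)
    have h4 : {x ∈ L a | σ * x * σ⁻¹ = x} = ∅ :=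
      Set.eq_empty_of_forall_notMem fun x hx => hx.1.2.1 (hf x hx.1.1 hx.2)
    rw [h4, Set.ncard_empty] at h1
    have h6 : 0 < (L a).ncard := (Set.ncard_pos).2 ⟨a, ha, a1, rfl⟩
    unfold Nat.ModEq at h1
    omega
  have un : ∀ (A B C : Set G) (W : Subgroup G), A ⊆ L a → B ⊆ L b → C ⊆ L c → A ⊆ W → B ⊆ W →
      C ⊆ W → A.ncard + B.ncard + C.ncard + 1 ≤ Nat.card W := by
    intro A B C W h1 h2 h3 w1 w2 w3
    have d1 : Disjoint A B := Set.disjoint_left.2 fun x x1 x2 =>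
      hab ((h1 x1).2.2.symm.trans (h2 x2).2.2)
    have d2 : Disjoint (A ∪ B) C := Set.disjoint_left.2 fun x x1 x2 => x1.elim
      (fun x1 => hac ((h1 x1).2.2.symm.trans (h3 x2).2.2))
      (fun x1 => hbc ((h2 x1).2.2.symm.trans (h3 x2).2.2))
    have d3 : (1 : G) ∉ A ∪ B ∪ C := by
      rintro ((h | h) | h)
      exacts [(h1 h).2.1 rfl, (h2 h).2.1 rfl, (h3 h).2.1 rfl]
    rw [← Set.ncard_union_eq d1, ← Set.ncard_union_eq d2, ← Set.ncard_insert_of_notMem d3,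
      ← FX.ncard_coe]
    refine Set.ncard_le_ncard ?_
    rintro x (rfl | (h | h) | h)
    exacts [W.one_mem, w1 h, w2 h, w3 h]
  have e1 := un (L a) (L b) (L c) V le_rfl le_rfl le_rfl (fun _ h => h.1) (fun _ h => h.1)
    (fun _ h => h.1)
  have la := l5 a ha a1
  have lb := l5 b hb b1
  have lc := l5 c hc c1
  have m := fun a => ncard_modEq_conj Nat.prime_three h3 (L a) (hL a s)
  have sub : ∀ a, {x ∈ L a | s * x * s⁻¹ = x} ⊆ (V ⊓ centralizer ({s} : Set G) : Subgroup G) :=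
    fun a x hx => ⟨hx.1.1, mem_centralizer_singleton_iff.2 (mul_inv_eq_iff_eq_mul.1 hx.2).symm⟩
  have e2 := un _ _ _ _ (fun _ h => h.1) (fun _ h => h.1) (fun _ h => h.1) (sub a) (sub b) (sub c)
  have ma := m a
  have mb := m b
  have mc := m c
  have e3 := card_modEq_conj Nat.prime_three h3 V (fun x hx => hV.conj_mem x hx s)
  have e4 : Nat.card ↥(V ⊓ centralizer ({s} : Set G)) ≤ Nat.card V := card_le_of_le inf_le_left
  have e5 := dvd16 (h2.to_le (inf_le_left : V ⊓ centralizer ({s} : Set G) ≤ V)) (e4.trans h16.le)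
  unfold Nat.ModEq at ma mb mc e3
  have ea : (L a).ncard = 5 := by omega
  have eb : (L b).ncard = 5 := by omega
  have ec : (L c).ncard = 5 := by omega
  rw [ea] at ma
  rw [eb] at mb
  rw [ec] at mc
  clear e1 la lb lc ea eb ec
  have := eq_of_le_of_card_ge (inf_le_left : V ⊓ centralizer ({s} : Set G) ≤ V) (by omega)
  intro v hv
  rw [← this] at hv
  rw [← mem_centralizer_singleton_iff.1 hv.2]; group

/-- a quadratic form in at least three variables has a singular vector -/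
theorem anti {T N P : Subgroup G} [N.Normal] (hNT : N ≤ T)
    (hc : ∀ n ∈ N, ∀ x ∈ T, x * n = n * x) (hsq : ∀ x ∈ T, x ^ 2 ∈ N)
    (h4 : 4 * Nat.card N < Nat.card T) (h2 : ∀ a ∈ N, ∀ b ∈ N, a ∉ P → b ∉ P → a * b ∈ P) :
    ∃ x ∈ T, x ∉ N ∧ x ^ 2 ∈ P := by
  by_contra hne
  push Not at hne
  have hcard : 4 < Nat.card (T.map (QuotientGroup.mk' N)) := by
    have h1 := relIndex_ker T (QuotientGroup.mk' N)
    rw [QuotientGroup.ker_mk'] at h1
    have h3 := (N.subgroupOf T).card_mul_index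
    rw [Nat.card_congr (subgroupOfEquivOfLe hNT).toEquiv] at h3
    have h5 : (N.subgroupOf T).index = Nat.card (T.map (QuotientGroup.mk' N)) := h1
    rw [h5] at h3
    by_contra hle
    push Not at hle
    nlinarith
  obtain ⟨_, ⟨x, hx, rfl⟩, x1⟩ := Con.exists_notMem (J := T.map (QuotientGroup.mk' N)) [1]
    (by simp only [List.length]; omega)
  obtain ⟨_, ⟨y, hy, rfl⟩, y1⟩ := Con.exists_notMem (J := T.map (QuotientGroup.mk' N))
    [1, (QuotientGroup.mk' N x)⁻¹] (by simp only [List.length]; omega)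
  obtain ⟨_, ⟨u, hu, rfl⟩, u1⟩ := Con.exists_notMem (J := T.map (QuotientGroup.mk' N))
    [1, (QuotientGroup.mk' N x)⁻¹, (QuotientGroup.mk' N y)⁻¹, (QuotientGroup.mk' N (x * y))⁻¹]
    (by simp only [List.length]; omega)
  simp only [List.mem_cons, List.not_mem_nil, or_false, not_or] at x1 y1 u1
  have k1 : ∀ a : G, QuotientGroup.mk' N a ≠ 1 → a ∉ N := fun a h k =>
    h ((QuotientGroup.eq_one_iff a).2 k)
  have k2 : ∀ a b : G, QuotientGroup.mk' N b ≠ (QuotientGroup.mk' N a)⁻¹ → a * b ∉ N :=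
    fun a b h => k1 _ fun e => h (eq_inv_of_mul_eq_one_right (by rw [← map_mul]; exact e))
  have key : ∀ a ∈ T, ∀ b ∈ T, a ∉ N → b ∉ N → a * b ∉ N →
      a⁻¹ * b * a * b⁻¹ ∈ N ∧ a⁻¹ * b * a * b⁻¹ ∉ P := by
    intro a ha b hb n1 n2 n3
    have e : a⁻¹ * b * a * b⁻¹ = (a ^ 2)⁻¹ * (a * b) ^ 2 * (b ^ 2)⁻¹ := by
      simp only [pow_two]; group
    have m1 := N.inv_mem (hsq a ha)
    have m2 := hsq _ (T.mul_mem ha hb)
    have m3 := N.inv_mem (hsq b hb)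
    rw [e]
    refine ⟨N.mul_mem (N.mul_mem m1 m2) m3, fun k => ?_⟩
    have p1 := h2 _ m1 _ m2 (fun k => hne a ha n1 (by simpa using P.inv_mem k))
      (hne _ (T.mul_mem ha hb) n3)
    exact hne b hb n2 (by simpa using P.inv_mem ((P.mul_mem_cancel_left p1).1 k))
  obtain ⟨c1, d1⟩ := key x hx y hy (k1 _ x1) (k1 _ y1.1) (k2 _ _ y1.2)
  obtain ⟨c2, d2⟩ := key x hx u hu (k1 _ x1) (k1 _ u1.1) (k2 _ _ u1.2.1)
  obtain ⟨-, d3⟩ := key x hx (y * u) (T.mul_mem hy hu) (k1 _ x1) (k2 _ _ u1.2.2.1)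
    (by rw [← mul_assoc]; exact k2 _ _ u1.2.2.2)
  apply d3
  have e : x⁻¹ * (y * u) * x * (y * u)⁻¹ = (x⁻¹ * y * x * y⁻¹) * (x⁻¹ * u * x * u⁻¹) := by
    calc x⁻¹ * (y * u) * x * (y * u)⁻¹ = x⁻¹ * y * x * ((x⁻¹ * u * x * u⁻¹) * y⁻¹) := by group
      _ = _ := by rw [← hc _ c2 _ (T.inv_mem hy)]; group
  rw [e]
  exact h2 _ c1 _ c2 d1 d2

end Cfsg.Agent.H20.A5C
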