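import Mathlib
import Cfsg.Agent.H20.A5C1
import Cfsg.Agent.H7.PBasic

/-!
Normal `2`-subgroups with an alternating quotient of degree five in groups of sectional rank four.
-/

set_option autoImplicit false
set_option linter.unusedSectionVars false

namespace Cfsg.Agent.H20.A5C

open Subgroup Cfsg.Agent.H69 Cfsg.Agent.H61

universe u

variable {G : Type u} [Group G] [Finite G]

/-- The standing hypotheses. -/
structure Hyp (T : Subgroup G) (σ t s : G) : Prop where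
  nrm : T.Normal
  pg : IsPGroup 2 T
  simp : ∀ N : Subgroup G, N.Normal → T ≤ N → N = T ∨ N = ⊤
  sec : SecLE 16 G
  s5 : σ ^ 5 = 1
  inv : t * σ * t⁻¹ * σ ∈ T
  t2 : t ^ 2 ∈ T
  s3 : s ^ 3 = 1
  sT : s ∉ T
  mv : ∃ x ∈ T, σ * x * σ⁻¹ ≠ x

/-- The conclusion. -/
def Good (T : Subgroup G) (σ : G) : Prop :=
  (Nat.card T = 16 ∧ (∀ x ∈ T, x ^ 2 = 1) ∧ ∀ x ∈ T, σ * x * σ⁻¹ = x → x = 1) ∨
  ∃ z ∈ T, z ^ 2 = 1 ∧ z ≠ 1 ∧ (∀ g, g * z = z * g) ∧ Nat.card T = 32 ∧
    (∀ x ∈ T, x ^ 2 ∈ zpowers z) ∧ ∀ x ∈ T, σ * x * σ⁻¹ * x⁻¹ ∈ zpowers z → x ∈ zpowers z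

variable {T : Subgroup G} {σ t s : G}

theorem Hyp.σT (h : Hyp T σ t s) : σ ∉ T := fun h2 => by
  obtain ⟨k, hk⟩ := h.pg ⟨σ, h2⟩
  obtain rfl : σ = 1 := mem_bot.1 (Con.mem_of_coprime (H := ⊥) (a := 2 ^ k) (b := 5)
    (Nat.Coprime.pow_left k (by norm_num)) (congrArg Subtype.val hk) h.s5)
  obtain ⟨x, -, e⟩ := h.mv
  simp at e

theorem Hyp.tT (h : Hyp T σ t s) : t ∉ T := fun h2 => by
  apply h.σT
  refine Con.mem_of_coprime (a := 2) (b := 5) (by norm_num) ?_ (h.s5 ▸ T.one_mem)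
  have h8 := T.mul_mem (T.mul_mem (T.inv_mem h2) h.inv) (h.nrm.conj_mem _ h2 σ⁻¹)
  convert h8 using 1
  simp only [pow_two]; group

theorem Hyp.top (h : Hyp T σ t s) {N : Subgroup G} (hN : N.Normal) (h1 : T ≤ N) {a : G}
    (h2 : a ∈ N) (h3 : a ∉ T) (g : G) : g ∈ N := by
  rcases h.simp N hN h1 with rfl | rfl
  · exact absurd h2 h3
  · trivial

theorem Hyp.quot (h : Hyp T σ t s) {M : Subgroup G} [M.Normal] (hM : M ≤ T)
    (hn : ∃ x ∈ T, σ * x * σ⁻¹ * x⁻¹ ∉ M) :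
    Hyp (T.map (QuotientGroup.mk' M)) (QuotientGroup.mk' M σ) (QuotientGroup.mk' M t)
      (QuotientGroup.mk' M s) := by
  have hs := QuotientGroup.mk'_surjective M
  have hk : (QuotientGroup.mk' M).ker ≤ T := by rwa [QuotientGroup.ker_mk']
  refine ⟨h.nrm.map _ hs, h.pg.map _, fun N hN hle => ?_,
    fun K N hK => ?_, by rw [← map_pow, h.s5, map_one], ⟨_, h.inv, by simp⟩, ⟨_, h.t2, by simp⟩,
    by rw [← map_pow, h.s3, map_one], fun k => h.sT ?_, ?_⟩
  · rw [← map_comap_eq_self_of_surjective hs N]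
    rcases h.simp _ (hN.comap _) (map_le_iff_le_comap.1 hle) with e | e <;> rw [e]
    exacts [Or.inl rfl, Or.inr (map_top_of_surjective _ hs)]
  · have := h.sec (K.comap (QuotientGroup.mk' M)) (N.comap (QuotientGroup.mk' M))
      fun x hx => by rw [mem_comap, map_pow]; exact hK _ hx
    rwa [relIndex_comap, map_comap_eq_self_of_surjective hs] at this
  · rw [← comap_map_eq_self hk]; exact k
  · obtain ⟨x, hx, e⟩ := hn
    refine ⟨_, ⟨x, hx, rfl⟩, fun k => e ?_⟩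
    rw [← QuotientGroup.eq_one_iff (N := M)]
    exact mul_inv_eq_one.2 k

theorem card_map_mk {M : Subgroup G} [M.Normal] (hM : M ≤ T) :
    Nat.card T = Nat.card M * Nat.card (T.map (QuotientGroup.mk' M)) := by
  rw [← Con.card_comap_mk, comap_map_eq_self (by rwa [QuotientGroup.ker_mk'])]

theorem surj_mod [hT : T.Normal] {N : Subgroup G} [N.Normal]
    (hf : ∀ x ∈ T, σ * x * σ⁻¹ * x⁻¹ ∈ N → x ∈ N) {w : G} (hw : w ∈ T) :
    ∃ v ∈ T, ∃ n ∈ N, w = σ * v * σ⁻¹ * v⁻¹ * n := by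
  obtain ⟨_, ⟨v, hv, rfl⟩, e⟩ := Con.surj_of_fpf (σ := QuotientGroup.mk' N σ)
    (J := T.map (QuotientGroup.mk' N))
    (fun j hj => (hT.map _ (QuotientGroup.mk'_surjective N)).conj_mem j hj _)
    (by
      rintro _ ⟨x, hx, rfl⟩ e
      refine (QuotientGroup.eq_one_iff x).2 (hf x hx ?_)
      rw [← QuotientGroup.eq_one_iff (N := N)]
      exact mul_inv_eq_one.2 e) (mem_map_of_mem _ hw)
  refine ⟨v, hv, (σ * v * σ⁻¹ * v⁻¹)⁻¹ * w, QuotientGroup.eq.1 e, by group⟩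

/-- two free layers of order sixteen -/
theorem Hyp.caseW1 (h : Hyp T σ t s) {W : Subgroup G} [hW : W.Normal] (hWT : W ≤ T)
    (hc : ∀ x ∈ T, ∀ w ∈ W, x * w = w * x) (h16 : Nat.card W = 16) (hsq : ∀ w ∈ W, w ^ 2 = 1)
    (hf : ∀ w ∈ W, σ * w * σ⁻¹ = w → w = 1)
    (c1 : Nat.card (T.map (QuotientGroup.mk' W)) = 16)
    (c2 : ∀ x ∈ T.map (QuotientGroup.mk' W), x ^ 2 = 1)
    (c3 : ∀ x ∈ T.map (QuotientGroup.mk' W),
      QuotientGroup.mk' W σ * x * (QuotientGroup.mk' W σ)⁻¹ = x → x = 1) : False := by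
  have hT := h.nrm
  have hTn : (T.map (QuotientGroup.mk' W)).Normal := hT.map _ (QuotientGroup.mk'_surjective W)
  have hcm := Con.comm_of_sq c2
  obtain ⟨f1, f2⟩ := free (σ := QuotientGroup.mk' W σ) (t := QuotientGroup.mk' W t)
    (by rw [← map_pow, h.s5, map_one]) c1 c2 c3
    (fun v hv => hcm _ ⟨_, h.inv, by simp⟩ v hv) (fun v hv => hcm _ ⟨_, h.t2, by simp⟩ v hv)
  obtain ⟨_, ⟨u, hu, rfl⟩, eu⟩ := f2 _ ⟨_, h.t2, rfl⟩ (by rw [map_pow, pow_two, mul_assoc])
  have hq2 : (t * u) ^ 2 ∈ W := by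
    rw [← QuotientGroup.eq_one_iff (N := W)]
    show QuotientGroup.mk' W ((t * u) ^ 2) = 1
    have i1 : (QuotientGroup.mk' W u)⁻¹ = QuotientGroup.mk' W u := Con.inv_of_sq (c2 _ ⟨u, hu, rfl⟩)
    have m1 : QuotientGroup.mk' W u ∈ T.map (QuotientGroup.mk' W) := ⟨u, hu, rfl⟩
    have m2 : QuotientGroup.mk' W (t ^ 2) ∈ T.map (QuotientGroup.mk' W) := ⟨_, h.t2, rfl⟩
    have m3 := hTn.conj_mem _ m1 (QuotientGroup.mk' W t)
    rw [i1] at eu
    have e2 := c2 _ m2
    rw [map_pow] at eu m2 e2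
    rw [map_pow, map_mul]
    generalize QuotientGroup.mk' W u = a at *
    generalize QuotientGroup.mk' W t = b at *
    calc (b * a) ^ 2 = (b * a * b⁻¹) * (b ^ 2 * a) := by simp only [pow_two]; group
      _ = (b * a * b⁻¹ * a) * b ^ 2 := by rw [hcm _ m2 _ m1]; group
      _ = (a * b * a * b⁻¹) * b ^ 2 := by rw [hcm _ m3 _ m1]; group
      _ = 1 := by rw [eu, ← pow_two, e2]
  obtain ⟨g1, -⟩ := free (σ := σ) (t := t) h.s5 h16 hsq hf (fun v hv => hc _ h.inv v hv)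
    (fun v hv => hc _ h.t2 v hv)
  let B := (T.map (QuotientGroup.mk' W) ⊓ centralizer {QuotientGroup.mk' W t}).comap
    (QuotientGroup.mk' W)
  have hBT : B ≤ T := fun b hb => by
    rw [← comap_map_eq_self (f := QuotientGroup.mk' W) (H := T) (by rwa [QuotientGroup.ker_mk'])]
    exact hb.1
  have hB : ∀ b ∈ B, t * b * t⁻¹ * b⁻¹ ∈ W := fun b hb => by
    rw [← QuotientGroup.eq_one_iff (N := W)]
    have := mem_centralizer_singleton_iff.1 hb.2
    show QuotientGroup.mk' W (t * b * t⁻¹ * b⁻¹) = 1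
    simp only [map_mul, map_inv]
    rw [← this]; group
  have hsqW : ∀ x ∈ T, x ^ 2 ∈ W := fun x hx => by
    rw [← QuotientGroup.eq_one_iff (N := W)]
    exact c2 _ ⟨x, hx, rfl⟩
  have hcomW : ∀ x ∈ T, ∀ y ∈ T, x * y * x⁻¹ * y⁻¹ ∈ W := fun x hx y hy => by
    rw [← QuotientGroup.eq_one_iff (N := W)]
    show QuotientGroup.mk' W (x * y * x⁻¹ * y⁻¹) = 1
    simp only [map_mul, map_inv]
    rw [hcm _ ⟨x, hx, rfl⟩ _ ⟨y, hy, rfl⟩]; group
  have toD : ∀ w ∈ W, t * u * w = w * (t * u) → w ∈ W ⊓ centralizer ({t} : Set G) :=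
    fun w hw e => ⟨hw, mem_centralizer_singleton_iff.2 (by
      rw [mul_assoc, hc u hu w hw, ← mul_assoc, ← mul_assoc] at e
      exact (mul_right_cancel e).symm)⟩
  have hq : ∀ b ∈ B, t * u * b * (t * u)⁻¹ * b⁻¹ ∈ W := fun b hb => by
    have := W.mul_mem (hW.conj_mem _ (hcomW u hu b (hBT hb)) t) (hB b hb)
    convert this using 1; group
  have := Con.no_one h.sec (B := B) (D := W ⊓ centralizer ({t} : Set G)) (q := t * u)
    (fun w hw => by
      refine mem_comap.2 ?_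
      rw [show QuotientGroup.mk' W w = 1 from (QuotientGroup.eq_one_iff w).2 hw.1]
      exact one_mem _)
    (fun b hb => ⟨hsqW b (hBT hb), mem_centralizer_singleton_iff.2 (by
      have m := hB b hb
      have e1 : t * b * t⁻¹ = (t * b * t⁻¹ * b⁻¹) * b := by group
      have e2 := hc b (hBT hb) _ m
      have e3 := hsq _ m
      generalize t * b * t⁻¹ * b⁻¹ = w at *
      have e4 : t * b ^ 2 * t⁻¹ = b ^ 2 := by
        calc t * b ^ 2 * t⁻¹ = (t * b * t⁻¹) * (t * b * t⁻¹) := by simp only [pow_two]; group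
          _ = w * (b * w) * b := by rw [e1]; group
          _ = w ^ 2 * b ^ 2 := by rw [e2]; simp only [pow_two]; group
          _ = _ := by rw [e3, one_mul]
      exact (mul_inv_eq_iff_eq_mul.1 e4).symm)⟩)
    (fun b hb => toD _ (hq b hb) (by
      have m := hq b hb
      have e0 := hc b (hBT hb) _ hq2
      have i1 := Con.inv_of_sq (hsq _ m)
      generalize t * u = q at *
      have e1 : q * (q * b * q⁻¹ * b⁻¹) * q⁻¹ = (q * b * q⁻¹ * b⁻¹)⁻¹ := by
        calc q * (q * b * q⁻¹ * b⁻¹) * q⁻¹ = (q ^ 2 * b) * (q ^ 2)⁻¹ * (q * b⁻¹ * q⁻¹) := by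
              simp only [pow_two]; group
          _ = _ := by rw [← e0]; group
      rw [i1] at e1
      exact mul_inv_eq_iff_eq_mul.1 e1))
    (toD _ hq2 ((Commute.refl (t * u)).pow_right 2).eq)
    (fun k => h.tT ((T.mul_mem_cancel_right hu).1 (hBT k)))
  rw [Con.card_comap_mk, f1, g1, h16] at this
  omega

/-- a central four-group or cyclic group of order four below an elementary top -/
theorem Hyp.caseM2 (h : Hyp T σ t s) {m : G} (m2 : m ^ 2 = 1) (m1 : m ≠ 1) (mT : m ∈ T)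
    (mc : ∀ g, g * m = m * g) {N : Subgroup G} [hN : N.Normal] {w : G} (wT : w ∈ T)
    (hNm : ∀ x, x ∈ N ↔ x ∈ zpowers m ∨ x * w⁻¹ ∈ zpowers m) (h4 : Nat.card N = 4)
    (w2 : w ^ 2 ∈ zpowers m) (wc : ∀ g, g * w * g⁻¹ * w⁻¹ ∈ zpowers m) (h64 : Nat.card T = 64)
    (hsq : ∀ x ∈ T, x ^ 2 ∈ N) (hf : ∀ x ∈ T, σ * x * σ⁻¹ * x⁻¹ ∈ N → x ∈ N) : False := by
  have hT := h.nrm
  have zc : ∀ a ∈ zpowers m, ∀ g, g * a = a * g := fun a ha g => by
    rcases (Con.mem_zp m2).1 ha with rfl | rfl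
    · simp
    · exact mc g
  have hNT : N ≤ T := fun x hx => ((hNm x).1 hx).elim (fun k => zpowers_le.2 mT k)
    fun k => (T.mul_mem_cancel_right (T.inv_mem wT)).1 (zpowers_le.2 mT k)
  let ε : G →* zpowers m := MonoidHom.mk' (fun g => ⟨g * w * g⁻¹ * w⁻¹, wc g⟩) (fun a b =>
    Subtype.ext (by
      show a * b * w * (a * b)⁻¹ * w⁻¹ = a * w * a⁻¹ * w⁻¹ * (b * w * b⁻¹ * w⁻¹)
      calc a * b * w * (a * b)⁻¹ * w⁻¹ = a * ((b * w * b⁻¹ * w⁻¹) * (w * a⁻¹ * w⁻¹)) := by group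
        _ = _ := by rw [← zc _ (wc b)]; group))
  have hker : ∀ g, g ∈ ε.ker ↔ g * w = w * g := fun g => by
    rw [MonoidHom.mem_ker, Subtype.ext_iff]
    show g * w * g⁻¹ * w⁻¹ = 1 ↔ _
    rw [mul_inv_eq_one, mul_inv_eq_iff_eq_mul]
  have hNk : N ≤ ε.ker := fun x hx => (hker x).2 (((hNm x).1 hx).elim (fun k => (zc x k w).symm)
    fun k => by
      have := zc _ k w
      calc x * w = x * w⁻¹ * w * w := by group
        _ = w * x := by rw [← this]; group)
  have hTk : T ≤ ε.ker := fun x hx => by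
    obtain ⟨v, -, n, hn, rfl⟩ := surj_mod hf hx
    refine mul_mem ?_ (hNk hn)
    rw [MonoidHom.mem_ker]
    simp only [map_mul, map_inv]
    rw [show ε σ * ε v = ε v * ε σ from Subtype.ext (zc _ (ε v).2 _)]; group
  have hσk : σ ∈ ε.ker := (hker σ).2 (mul_inv_eq_iff_eq_mul.1 (fix_of_cent h.s5 m2 (mc σ) (wc σ)))
  have wc' : ∀ g, g * w = w * g := fun g => (hker g).1 (h.top inferInstance hTk hσk h.σT g)
  have nc : ∀ n ∈ N, ∀ g, g * n = n * g := fun n hn g => ((hNm n).1 hn).elim (fun k => zc n k g)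
    fun k => by
      calc g * n = g * (n * w⁻¹) * w := by group
        _ = n * w⁻¹ * (g * w) := by rw [zc _ k g]; group
        _ = n * g := by rw [wc' g]; group
  have small : ∀ a : G, a ^ 2 = 1 → ¬ ∀ x ∈ T, x ^ 2 ∈ zpowers a := fun a ha k => by
    have e1 := card_le_of_secLE h.sec k
    have e2 : Nat.card (zpowers a) ≤ 2 := by
      rw [Nat.card_zpowers]; exact Nat.le_of_dvd two_pos (orderOf_dvd_of_pow_eq_one ha)
    omega
  have hsqN : ∀ n ∈ N, n ^ 2 ∈ zpowers m := fun n hn => ((hNm n).1 hn).elim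
    (fun k => pow_mem k 2) fun k => by
      have : n ^ 2 = (n * w⁻¹) ^ 2 * w ^ 2 := by
        rw [← (show Commute (n * w⁻¹) w from wc' _).mul_pow]; group
      rw [this]; exact mul_mem (pow_mem k 2) w2
  by_cases hw : w ^ 2 = 1
  · have n2 : ∀ n ∈ N, n ^ 2 = 1 := fun n hn => by
      have a2 : ∀ a ∈ zpowers m, a ^ 2 = 1 := fun a ha => by
        rcases (Con.mem_zp m2).1 ha with rfl | rfl
        exacts [one_pow 2, m2]
      rcases (hNm n).1 hn with k | k
      · exact a2 n k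
      · have : n ^ 2 = (n * w⁻¹) ^ 2 * w ^ 2 := by
          rw [← (show Commute (n * w⁻¹) w from wc' _).mul_pow]; group
        rw [this, a2 _ k, hw, one_mul]
    have hsm : ∀ a ∈ N, ∃ x ∈ T, x ∉ N ∧ x ^ 2 ∉ zpowers a := fun a ha => by
      have := small a (n2 a ha)
      push Not at this
      obtain ⟨x, hx, k⟩ := this
      exact ⟨x, hx, fun e => k (by rw [n2 x e]; exact one_mem _), k⟩
    have hTn : (T.map (QuotientGroup.mk' N)).Normal := hT.map _ (QuotientGroup.mk'_surjective N)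
    have hout : ∀ x ∈ T, (QuotientGroup.mk' N x).out ^ 2 = x ^ 2 := fun x _ => by
      obtain ⟨n, e⟩ := QuotientGroup.mk_out_eq_mul N x
      show (QuotientGroup.mk x : G ⧸ N).out ^ 2 = _
      rw [e, (show Commute x n from nc n n.2 x).mul_pow, n2 n n.2, mul_one]
    have three : ∀ a ∈ T, ∀ b ∈ T, ∀ c ∈ T, a ∉ N → b ∉ N → c ∉ N → a ^ 2 ≠ b ^ 2 →
        a ^ 2 ≠ c ^ 2 → b ^ 2 ≠ c ^ 2 → False := by
      intro a ha b hb c hc a1 b1 c1 e1 e2 e3
      have hcard : Nat.card (T.map (QuotientGroup.mk' N)) = 16 := by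
        have := card_map_mk hNT
        rw [h64, h4] at this
        omega
      have key := three_vals (σ := QuotientGroup.mk' N σ) (s := QuotientGroup.mk' N s)
        (by rw [← map_pow, h.s5, map_one]) (by rw [← map_pow, h.s3, map_one]) (h.pg.map _) hcard
        (by
          rintro _ ⟨x, hx, rfl⟩ e
          refine (QuotientGroup.eq_one_iff x).2 (hf x hx ?_)
          rw [← QuotientGroup.eq_one_iff (N := N)]
          exact mul_inv_eq_one.2 e) (fun x => x.out ^ 2)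
        (by
          rintro g _ ⟨x, hx, rfl⟩
          obtain ⟨g, rfl⟩ := QuotientGroup.mk'_surjective N g
          rw [← map_inv, ← map_mul, ← map_mul, hout _ (hT.conj_mem x hx g), hout x hx, conj_pow,
            nc _ (hsq x hx) g, mul_inv_cancel_right])
        ⟨a, ha, rfl⟩ ⟨b, hb, rfl⟩ ⟨c, hc, rfl⟩ (fun k => a1 ((QuotientGroup.eq_one_iff a).1 k))
        (fun k => b1 ((QuotientGroup.eq_one_iff b).1 k))
        (fun k => c1 ((QuotientGroup.eq_one_iff c).1 k))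
        (by rwa [hout a ha, hout b hb]) (by rwa [hout a ha, hout c hc])
        (by rwa [hout b hb, hout c hc])
      have hcm := Con.comm_of_sq (V := T.map (QuotientGroup.mk' N)) (by
        rintro _ ⟨x, hx, rfl⟩
        rw [← map_pow]
        exact (QuotientGroup.eq_one_iff _).2 (hsq x hx))
      have k1 := h.top (N := (centralizer (T.map (QuotientGroup.mk' N) : Set (G ⧸ N))).comap
        (QuotientGroup.mk' N)) inferInstance
        (fun x hx y hy => hcm y hy _ ⟨x, hx, rfl⟩) (a := s)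
        (fun y hy => (mul_inv_eq_iff_eq_mul.1 (key y hy)).symm) h.sT σ
      apply a1
      refine hf a ha ?_
      rw [← QuotientGroup.eq_one_iff (N := N)]
      show QuotientGroup.mk' N (σ * a * σ⁻¹ * a⁻¹) = 1
      simp only [map_mul, map_inv]
      rw [← k1 _ ⟨a, ha, rfl⟩]; group
    obtain ⟨a, ha, a1, a2⟩ := hsm 1 N.one_mem
    obtain ⟨b, hb, b1, b2⟩ := hsm _ (hsq a ha)
    have a3 : a ^ 2 ≠ 1 := fun e => a2 (by rw [e]; exact one_mem _)
    have b3 : b ^ 2 ≠ 1 := fun e => b2 (by rw [e]; exact one_mem _)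
    have ab : a ^ 2 ≠ b ^ 2 := fun e => b2 (e ▸ mem_zpowers _)
    have hp := N.mul_mem (hsq a ha) (hsq b hb)
    have p1 : a ^ 2 * b ^ 2 ≠ 1 := fun e => ab (by
      rw [eq_inv_of_mul_eq_one_left e, Con.inv_of_sq (n2 _ (hsq b hb))])
    obtain ⟨c, hc, c1, c2⟩ := anti (P := zpowers (a ^ 2 * b ^ 2)) hNT (fun n hn x _ => nc n hn x) hsq
      (by omega) (fun x hx y hy x1 y1 => by
        have i2 : ((zpowers (a ^ 2 * b ^ 2)).subgroupOf N).index = 2 := by
          have e := ((zpowers (a ^ 2 * b ^ 2)).subgroupOf N).card_mul_index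
          rw [Nat.card_congr (subgroupOfEquivOfLe (zpowers_le.2 hp)).toEquiv,
            Con.card_zp (n2 _ hp) p1, h4] at e
          omega
        exact (mul_mem_iff_of_index_two i2 (a := ⟨x, hx⟩) (b := ⟨y, hy⟩)).2 (iff_of_false x1 y1))
    rcases (Con.mem_zp (n2 _ hp)).1 c2 with e | e
    · exact three a ha b hb c hc a1 b1 c1 ab (e ▸ a3) (e ▸ b3)
    · exact three a ha b hb c hc a1 b1 c1 ab (fun k => b3 (mul_eq_left.1 (e.symm.trans k.symm)))
        (fun k => a3 (mul_eq_right.1 (e.symm.trans k.symm)))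
  · refine small m m2 fun x hx => ?_
    have com : ∀ a ∈ T, ∀ b ∈ T, a * b * a⁻¹ * b⁻¹ ∈ zpowers m := by
      intro a ha b hb
      have c1 : a * b * a⁻¹ * b⁻¹ ∈ N := by
        have : a * b * a⁻¹ * b⁻¹ = (a * b) ^ 2 * (b⁻¹ * (a ^ 2)⁻¹ * b⁻¹⁻¹) * (b ^ 2)⁻¹ := by
          simp only [pow_two]; group
        rw [this]
        exact N.mul_mem (N.mul_mem (hsq _ (T.mul_mem ha hb)) (hN.conj_mem _ (N.inv_mem (hsq a ha)) _))
          (N.inv_mem (hsq b hb))
      have c2 : (a * b * a⁻¹ * b⁻¹) ^ 2 = 1 := by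
        calc (a * b * a⁻¹ * b⁻¹) ^ 2 = (a * b * a⁻¹ * b⁻¹) * a * (b * a⁻¹ * b⁻¹) := by
              simp only [pow_two]; group
          _ = a ^ 2 * (b * (a ^ 2)⁻¹) * b⁻¹ := by rw [← nc _ c1 a]; simp only [pow_two]; group
          _ = 1 := by rw [nc _ (N.inv_mem (hsq a ha)) b]; group
      rcases (hNm _).1 c1 with k | k
      · exact k
      · exfalso
        apply hw
        generalize a * b * a⁻¹ * b⁻¹ = c at *
        have e1 : c ^ 2 = (c * w⁻¹) ^ 2 * w ^ 2 := by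
          rw [← (show Commute (c * w⁻¹) w from wc' _).mul_pow]; group
        have e2 : (c * w⁻¹) ^ 2 = 1 := by
          rcases (Con.mem_zp m2).1 k with e | e <;> rw [e]
          exacts [one_pow 2, m2]
        rw [c2, e2, one_mul] at e1
        exact e1.symm
    obtain ⟨v, hv, n, hn, rfl⟩ := surj_mod hf hx
    have e1 : σ * v ^ 2 * σ⁻¹ = v ^ 2 := by rw [nc _ (hsq v hv) σ]; group
    have e2 : (σ * v * σ⁻¹ * v⁻¹ * n) ^ 2 =
        (σ * v * σ⁻¹) * ((v⁻¹ * (σ * v * σ⁻¹) * v⁻¹⁻¹ * (σ * v * σ⁻¹)⁻¹) * (σ * v * σ⁻¹)⁻¹) *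
          ((σ * v ^ 2 * σ⁻¹) * (v ^ 2)⁻¹) * n ^ 2 := by
      rw [(show Commute _ n from nc n hn _).mul_pow]
      simp only [pow_two]; group
    rw [e2, e1, mul_inv_cancel, mul_one,
      ← zc _ (com _ (T.inv_mem hv) _ (hT.conj_mem v hv σ)), mul_inv_cancel_left]
    exact mul_mem (com _ (T.inv_mem hv) _ (hT.conj_mem v hv σ)) (hsqN n hn)

theorem good_aux (n : ℕ) : ∀ (G : Type u) [Group G] [Finite G] (T : Subgroup G) (σ t s : G),
    Nat.card G = n → Hyp T σ t s → Good T σ := by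
  induction n using Nat.strong_induction_on with
  | _ n ih =>
  intro G _ _ T σ t s hn h
  have nT := h.nrm
  have := Fact.mk Nat.prime_two
  have hq : ∀ (M : Subgroup G) [M.Normal], M ≤ T → 1 < Nat.card M →
      (∃ x ∈ T, σ * x * σ⁻¹ * x⁻¹ ∉ M) →
      Good (T.map (QuotientGroup.mk' M)) (QuotientGroup.mk' M σ) := fun M _ hM h1 h2 =>
    ih _ (by
      rw [← hn, card_eq_card_quotient_mul_card_subgroup M]
      exact lt_mul_of_one_lt_right Nat.card_pos h1) _ _ _ _ _ rfl (h.quot hM h2)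
  have up : ∀ (M : Subgroup G) [M.Normal] (x : G), QuotientGroup.mk' M x = 1 ↔ x ∈ M :=
    fun M _ x => QuotientGroup.eq_one_iff x
  let W : Subgroup G :=
    { carrier := {w | w ∈ T ∧ w ^ 2 = 1 ∧ ∀ x ∈ T, x * w = w * x}
      one_mem' := ⟨T.one_mem, one_pow 2, fun x _ => by simp⟩
      mul_mem' := fun {a b} ha hb => ⟨T.mul_mem ha.1 hb.1, by
        rw [(show Commute a b from hb.2.2 a ha.1).mul_pow, ha.2.1, hb.2.1, one_mul],
        fun x hx => by rw [← mul_assoc, ha.2.2 x hx, mul_assoc, hb.2.2 x hx, mul_assoc]⟩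
      inv_mem' := fun {a} ha => ⟨T.inv_mem ha.1, by rw [inv_pow, ha.2.1, inv_one], fun x hx => by
        rw [Con.inv_of_sq ha.2.1]; exact ha.2.2 x hx⟩ }
  have hWT : W ≤ T := fun w hw => hw.1
  have hWn : W.Normal := ⟨fun w hw g => ⟨nT.conj_mem w hw.1 g, by rw [conj_pow, hw.2.1]; group,
    fun x hx => by
      have := hw.2.2 _ (nT.conj_mem x hx g⁻¹)
      calc x * (g * w * g⁻¹) = g * (g⁻¹ * x * g⁻¹⁻¹ * w) * g⁻¹ := by group
        _ = _ := by rw [this]; group⟩⟩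
  have hWsq : ∀ w ∈ W, w ^ 2 = 1 := fun w hw => hw.2.1
  have hWc : ∀ x ∈ T, ∀ w ∈ W, x * w = w * x := fun x hx w hw => hw.2.2 x hx
  have hW16 : Nat.card W ≤ 16 := by simpa using card_le_of_secLE h.sec (N := ⊥) hWsq
  rcases E5 h.s5 (h.pg.to_le hWT) hW16 (fun v hv => hWn.conj_mem v hv σ) with hfix | ⟨c16, hf⟩
  · have hT1 : (⊤ : Subgroup T) ≠ ⊥ := by
      obtain ⟨x, hx, e⟩ := h.mv
      intro k
      have : (⟨x, hx⟩ : T) = 1 := mem_bot.1 (k ▸ mem_top _)
      rw [show x = 1 from congrArg Subtype.val this] at e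
      simp at e
    obtain ⟨⟨m, mT⟩, -, hmc, hm⟩ := H7.exists_mem_center_orderOf h.pg hT1
    have m2 : m ^ 2 = 1 := congrArg Subtype.val (hm ▸ pow_orderOf_eq_one (⟨m, mT⟩ : T))
    have m1 : m ≠ 1 := fun e => by
      rw [show (⟨m, mT⟩ : T) = 1 from Subtype.ext e, orderOf_one] at hm
      omega
    have mW : m ∈ W := ⟨mT, m2, fun x hx => congrArg Subtype.val (mem_center_iff.1 hmc ⟨x, hx⟩)⟩
    have mc : ∀ g, g * m = m * g := fun g =>
      (h.top (N := centralizer (W : Set G)) inferInstance (fun x hx w hw => (hWc x hx w hw).symm)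
        (a := σ) (fun w hw => (mul_inv_eq_iff_eq_mul.1 (hfix w hw)).symm) h.σT g m mW).symm
    have := Con.normal_of_central mc
    have hc := card_map_mk (M := zpowers m) (zpowers_le.2 mT)
    rw [Con.card_zp m2 m1] at hc
    rcases hq _ (zpowers_le.2 mT) (by rw [Con.card_zp m2 m1]; norm_num)
      (h.mv.imp fun x k => ⟨k.1, fun e => k.2 (fix_of_cent h.s5 m2 (mc σ) e)⟩) with
      ⟨c1, c2, c3⟩ | ⟨_, ⟨w, wT, rfl⟩, z2, z1, zc, c1, c2, c3⟩
    · refine Or.inr ⟨m, mT, m2, m1, mc, by omega, fun x hx => ?_, fun x hx e => ?_⟩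
      · rw [← up, map_pow]; exact c2 _ ⟨x, hx, rfl⟩
      · rw [← up] at e ⊢
        refine c3 _ ⟨x, hx, rfl⟩ ?_
        simp only [map_mul, map_inv] at e
        exact mul_inv_eq_one.1 e
    · exfalso
      have := Con.normal_of_central zc
      refine h.caseM2 m2 m1 mT mc (N := (zpowers (QuotientGroup.mk' (zpowers m) w)).comap
        (QuotientGroup.mk' (zpowers m))) wT (fun x => ?_) ?_ ?_ (fun g => ?_) (by omega)
        (fun x hx => ?_) (fun x hx e => ?_)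
      · rw [mem_comap, Con.mem_zp z2, up, Con.mk_eq]
      · rw [Con.card_comap_mk, Con.card_zp z2 z1, Con.card_zp m2 m1]
      · rw [← up, map_pow, z2]
      · rw [← up]; simp only [map_mul, map_inv]; rw [zc]; group
      · rw [mem_comap, map_pow]; exact c2 _ ⟨x, hx, rfl⟩
      · rw [mem_comap] at e ⊢
        simp only [map_mul, map_inv] at e
        exact c3 _ ⟨x, hx, rfl⟩ e
  · have no : ∀ c ∈ T, c ^ 2 = 1 → c ∈ W := fun c hc c2 => by
      by_contra k
      have := Con.no_one h.sec (B := W) (D := ⊥) bot_le hWsq (q := c)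
        (fun b hb => by rw [hWc c hc b hb]; simp) c2 k
      rw [c16, card_bot] at this
      omega
    by_cases hmv : ∃ x ∈ T, σ * x * σ⁻¹ * x⁻¹ ∉ W
    · exfalso
      rcases hq W hWT (by omega) hmv with ⟨c1, c2, c3⟩ | ⟨_, ⟨w, wT, rfl⟩, z2, z1, zc, -⟩
      · exact h.caseW1 hWT hWc c16 hWsq hf c1 c2 c3
      · refine z1 ((up W w).2 (no w wT (hf _ (by rw [← up, map_pow, z2]) ?_)))
        have m : σ * w * σ⁻¹ * w⁻¹ ∈ W := by
          rw [← up]; simp only [map_mul, map_inv]; rw [zc]; group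
        have e1 : σ * w * σ⁻¹ = (σ * w * σ⁻¹ * w⁻¹) * w := by group
        rw [← conj_pow, e1, (show Commute _ w from (hWc w wT _ m).symm).mul_pow, hWsq _ m, one_mul]
    · push Not at hmv
      have hle : T ≤ W := fun x hx => by
        obtain ⟨v, hv, e⟩ := Con.surj_of_fpf (fun j hj => hWn.conj_mem j hj σ) hf (hmv x hx)
        have hc : v⁻¹ * x ∈ T := T.mul_mem (T.inv_mem (hWT hv)) hx
        have e1 : σ * (v⁻¹ * x) * σ⁻¹ = v⁻¹ * x := by
          calc σ * (v⁻¹ * x) * σ⁻¹ = (σ * v * σ⁻¹)⁻¹ * (σ * x * σ⁻¹ * x⁻¹) * x := by group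
            _ = _ := by rw [← e]; group
        obtain ⟨k, hk⟩ := h.pg ⟨_, hc⟩
        have hk' : (v⁻¹ * x) ^ 2 ^ k = 1 := congrArg Subtype.val hk
        have : ∀ k : ℕ, (v⁻¹ * x) ^ 2 ^ k = 1 → v⁻¹ * x = 1 := by
          intro k
          induction k with
          | zero => simp
          | succ k ihk =>
            intro hk
            rw [pow_succ, pow_mul] at hk
            exact ihk (hf _ (no _ (T.pow_mem hc _) hk) (by rw [← conj_pow, e1]))
        rw [← inv_mul_eq_one.1 (this k hk')]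
        exact hv
      have hTW : T = W := le_antisymm hle hWT
      exact Or.inl ⟨hTW ▸ c16, fun x hx => hWsq x (hle hx), fun x hx => hf x (hle hx)⟩

end Cfsg.Agent.H20.A5C
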