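import Mathlib
import Cfsg.Agent.H20.A5C2

/-!
The extraspecial group of order `32` with an automorphism of order five.
-/

set_option autoImplicit false
set_option linter.unusedSectionVars false

namespace Cfsg.Agent.H20.A5C

open Subgroup Cfsg.Agent.H69 Cfsg.Agent.H61

theorem ident {Q : Type*} [Group Q] [Finite Q] (α : MulAut Q) (h5 : ∀ x, α (α (α (α (α x)))) = x)
    {z : Q} (z2 : z ^ 2 = 1) (z1 : z ≠ 1) (zc : ∀ g, g * z = z * g) (αz : α z = z)
    (h32 : Nat.card Q = 32) (hsq : ∀ x : Q, x ^ 2 ∈ zpowers z)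
    (hf : ∀ x : Q, α x * x⁻¹ ∈ zpowers z → x ∈ zpowers z) (hne : ∃ x : Q, x ^ 2 ≠ 1) :
    ∃ A B : Subgroup Q, Nonempty (A ≃* QuaternionGroup 2) ∧ Nonempty (B ≃* DihedralGroup 4) ∧
      (∀ a ∈ A, ∀ b ∈ B, a * b = b * a) ∧ A ⊔ B = ⊤ ∧ A ⊓ B = center Q := by
  have hN := Con.normal_of_central zc
  have := Fact.mk Nat.prime_two
  have cz := Con.card_zp z2 z1
  have zz : z * z = 1 := by rw [← pow_two, z2]
  have inv_sub : ∀ W : Subgroup Q, (∀ x ∈ W, α x ∈ W) → z ∈ W → W = zpowers z ∨ W = ⊤ := by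
    intro W hW hz
    have h1 := ncard_modEq (by norm_num : Nat.Prime 5) α h5 W hW
    have h2 : {x ∈ (W : Set Q) | α x = x} = (zpowers z : Set Q) := by
      ext x
      refine ⟨fun h => hf x (by rw [h.2, mul_inv_cancel]; exact one_mem _), fun h => ?_⟩
      rcases (Con.mem_zp z2).1 h with rfl | rfl
      exacts [⟨W.one_mem, map_one _⟩, ⟨hz, αz⟩]
    rw [h2, FX.ncard_coe, FX.ncard_coe, cz] at h1
    have h3 : Nat.card W ∣ 2 ^ 5 := by
      have := card_subgroup_dvd_card W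
      rwa [h32] at this
    obtain ⟨k, hk, e⟩ := (Nat.dvd_prime_pow Nat.prime_two).1 h3
    rw [e] at h1
    unfold Nat.ModEq at h1
    interval_cases k <;> simp at h1
    · exact Or.inl (eq_of_le_of_card_ge (zpowers_le.2 hz) (by rw [e, cz]; norm_num)).symm
    · exact Or.inr (eq_top_of_card_eq _ (by rw [e, h32]; norm_num))
  have com : ∀ a b : Q, a * b * a⁻¹ * b⁻¹ ∈ zpowers z := fun a b => by
    have : a * b * a⁻¹ * b⁻¹ = (a * b) ^ 2 * (b⁻¹ * (a ^ 2)⁻¹ * b⁻¹⁻¹) * (b ^ 2)⁻¹ := by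
      simp only [pow_two]; group
    rw [this]
    exact mul_mem (mul_mem (hsq _) (hN.conj_mem _ (inv_mem (hsq a)) _)) (inv_mem (hsq b))
  have sw : ∀ a b : Q, ∃ e, (e = 1 ∨ e = z) ∧ b * a = a * b * e := fun a b =>
    ⟨_, (Con.mem_zp z2).1 (com b⁻¹ a⁻¹), by group⟩
  obtain ⟨v0, -, v0z, q0⟩ := anti (T := ⊤) (N := zpowers z) (P := ⊥) le_top
    (fun n hn x _ => by
      rcases (Con.mem_zp z2).1 hn with rfl | rfl
      exacts [by simp, zc x]) (fun x _ => hsq x) (by rw [cz, card_top, h32]; norm_num)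
    (fun a ha b hb a1 b1 => by
      rw [((Con.mem_zp z2).1 ha).resolve_left a1, ((Con.mem_zp z2).1 hb).resolve_left b1]
      exact zz)
  rw [mem_bot, pow_two] at q0
  obtain ⟨v1, hv1⟩ : ∃ v1, v1 = α v0 := ⟨_, rfl⟩
  obtain ⟨v2, hv2⟩ : ∃ v2, v2 = α v1 := ⟨_, rfl⟩
  obtain ⟨v3, hv3⟩ : ∃ v3, v3 = α v2 := ⟨_, rfl⟩
  obtain ⟨v4, hv4⟩ : ∃ v4, v4 = α v3 := ⟨_, rfl⟩
  have hv0 : v0 = α v4 := by rw [hv4, hv3, hv2, hv1, h5]
  have q1 : v1 * v1 = 1 := by rw [hv1, ← map_mul, q0, map_one]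
  have q2 : v2 * v2 = 1 := by rw [hv2, ← map_mul, q1, map_one]
  have q3 : v3 * v3 = 1 := by rw [hv3, ← map_mul, q2, map_one]
  have q4 : v4 * v4 = 1 := by rw [hv4, ← map_mul, q3, map_one]
  have hP : v0 * v1 * v2 * v3 * v4 ∈ zpowers z := hf _ (by
    simp only [map_mul, ← hv1, ← hv2, ← hv3, ← hv4, ← hv0]
    convert com (v1 * v2 * v3 * v4) v0 using 1
    group)
  have hP2 : v0 * v1 * v2 * v3 * v4 * (v0 * v1 * v2 * v3 * v4) = 1 := by
    rcases (Con.mem_zp z2).1 hP with e | e <;> rw [e]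
    exacts [mul_one 1, zz]
  obtain ⟨e1, he1, r10⟩ := sw v0 v1
  obtain ⟨e2, he2, r20⟩ := sw v0 v2
  have ea : ∀ e : Q, (e = 1 ∨ e = z) → α e = e ∧ e * e = 1 ∧ ∀ g, e * g = g * e := by
    rintro e (rfl | rfl)
    exacts [⟨map_one _, mul_one 1, fun g => by simp⟩, ⟨αz, zz, fun g => (zc g).symm⟩]
  have nxt : ∀ {a b e : Q}, (e = 1 ∨ e = z) → b * a = a * b * e → α b * α a = α a * α b * e :=
    fun he h => by rw [← map_mul, h, map_mul, map_mul, (ea _ he).1]
  have rev : ∀ {a b e : Q}, (e = 1 ∨ e = z) → b * a = a * b * e → a * b = b * a * e :=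
    fun he h => by rw [h, mul_assoc, (ea _ he).2.1, mul_one]
  have r21 := nxt he1 r10
  rw [← hv1, ← hv2] at r21
  have r32 := nxt he1 r21
  rw [← hv2, ← hv3] at r32
  have r43 := nxt he1 r32
  rw [← hv3, ← hv4] at r43
  have r40 := nxt he1 r43
  rw [← hv4, ← hv0] at r40
  replace r40 := rev he1 r40
  have r31 := nxt he2 r20
  rw [← hv1, ← hv3] at r31
  have r42 := nxt he2 r31
  rw [← hv2, ← hv4] at r42
  have r30 := nxt he2 r42
  rw [← hv3, ← hv0] at r30
  have r41 := nxt he2 r30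
  rw [← hv1, ← hv4] at r41
  replace r30 := rev he2 r30
  replace r41 := rev he2 r41
  have as : ∀ {a b e : Q}, b * a = a * b * e → ∀ t, b * (a * t) = a * (b * (e * t)) :=
    fun h t => by rw [← mul_assoc, h]; simp only [mul_assoc]
  have sq : ∀ {a : Q}, a * a = 1 → ∀ t, a * (a * t) = t :=
    fun h t => by rw [← mul_assoc, h, one_mul]
  have zm : ∀ a t : Q, z * (a * t) = a * (z * t) := fun a t => by
    rw [← mul_assoc, ← zc a, mul_assoc]
  have iv : ∀ {a : Q}, a * a = 1 → a⁻¹ = a := fun h => inv_eq_of_mul_eq_one_right h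
  let W := closure ({v0, v1, v2, v3, v4, z} : Set Q)
  have hW : W = ⊤ := (inv_sub W (fun x hx => (closure_le (W.comap α.toMonoidHom)).2 (by
      rintro y (rfl | rfl | rfl | rfl | rfl | rfl) <;> refine subset_closure ?_ <;>
        simp [← hv1, ← hv2, ← hv3, ← hv4, ← hv0, αz]) hx) (subset_closure (by simp))).resolve_left
    fun e => v0z (e ▸ (subset_closure (by simp) : v0 ∈ W))
  have hzc : ∀ x ∈ center Q, α x ∈ center Q := fun x hx => mem_center_iff.2 fun g => by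
    obtain ⟨g, rfl⟩ := α.surjective g
    rw [← map_mul, ← map_mul, mem_center_iff.1 hx g]
  rcases he1 with rfl | rfl <;> rcases he2 with rfl | h2
  · exfalso
    have c0 : v0 ∈ center Q := mem_center_iff.2 fun g => by
      have : W ≤ centralizer {v0} := (closure_le _).2 (by
        rintro y (rfl | rfl | rfl | rfl | rfl | rfl) <;>
          refine mem_centralizer_singleton_iff.2 ?_
        exacts [rfl, by rw [r10, mul_one], by rw [r20, mul_one], by rw [r30, mul_one],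
          by rw [r40, mul_one], (zc _).symm])
      exact mem_centralizer_singleton_iff.1 (this (hW ▸ mem_top g))
    let U : Subgroup Q :=
      { carrier := {x | x ∈ center Q ∧ x ^ 2 = 1}
        one_mem' := ⟨one_mem _, one_pow 2⟩
        mul_mem' := fun {a b} ha hb => ⟨mul_mem ha.1 hb.1, by
          rw [(show Commute a b from mem_center_iff.1 hb.1 a).mul_pow, ha.2, hb.2, one_mul]⟩
        inv_mem' := fun {a} ha => ⟨inv_mem ha.1, by rw [inv_pow, ha.2, inv_one]⟩ }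
    obtain ⟨x, hx⟩ := hne
    rcases inv_sub U (fun x hx => ⟨hzc x hx.1, by rw [← map_pow, hx.2, map_one]⟩)
      ⟨mem_center_iff.2 zc, z2⟩ with e | e
    · exact v0z (e ▸ (⟨c0, by rw [pow_two, q0]⟩ : v0 ∈ U))
    · exact hx (e ▸ mem_top x : x ∈ U).2
  · exfalso
    subst h2
    simp only [mul_assoc, as r10, as r20, as r30, as r40, as r21, as r31, as r41, as r32, as r42,
      as r43, sq q0, sq q1, sq q2, sq q3, sq q4, zm v0, zm v1, zm v2, zm v3, zm v4, sq zz, one_mul,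
      ← zc v4] at hP2
    exact z1 hP2
  · exfalso
    simp only [mul_assoc, as r10, as r20, as r30, as r40, as r21, as r31, as r41, as r32, as r42,
      as r43, sq q0, sq q1, sq q2, sq q3, sq q4, zm v0, zm v1, zm v2, zm v3, zm v4, sq zz, one_mul,
      ← zc v4] at hP2
    exact z1 hP2
  subst h2
  have hcen : center Q = zpowers e2 := (inv_sub _ hzc (mem_center_iff.2 zc)).resolve_right
    fun e => z1 (by
      have := mem_center_iff.1 (e ▸ mem_top v0 : v0 ∈ center Q) v1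
      rw [r10] at this
      exact mul_eq_left.1 this)
  have nf : ∀ x y : Q, x * 1 = y * 1 → x = y := fun x y h => by simpa using h
  have ord4 : ∀ a : Q, a * a = e2 → orderOf a = 4 := fun a h => by
    refine orderOf_eq_prime_pow (p := 2) (n := 1) ?_ ?_
    · rw [pow_one, pow_two, h]; exact z1
    · rw [show 2 ^ (1 + 1) = 2 * 2 from rfl, pow_mul, pow_two a, h, z2]
  have notm : ∀ a b : Q, b * a = a * b * e2 → b ∉ zpowers a := fun a b h k => by
    obtain ⟨n, rfl⟩ := mem_zpowers_iff.1 k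
    rw [← (Commute.refl a).zpow_right n] at h
    exact z1 (mul_eq_left.1 h.symm)
  have a2 : v0 * v1 * v2 * (v0 * v1 * v2) = e2 := nf _ _ (by
    simp only [mul_assoc, as r10, as r20, as r21, sq q0, sq q1, sq q2, zm v0, zm v1, zm v2, sq zz])
  have b2 : v0 * v1 * v3 * (v0 * v1 * v3) = e2 := nf _ _ (by
    simp only [mul_assoc, as r10, as r30, as r31, sq q0, sq q1, sq q3, zm v0, zm v1, zm v3, sq zz])
  have ba : v0 * v1 * v3 * (v0 * v1 * v2) = v0 * v1 * v2 * (v0 * v1 * v3) * e2 := nf _ _ (by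
    simp only [mul_assoc, as r10, as r20, as r21, as r30, as r31, as r32, sq q0, sq q1, zm v0,
      zm v1, zm v2, zm v3, sq zz])
  have c2 : v0 * v1 * (v0 * v1) = e2 := nf _ _ (by
    simp only [mul_assoc, as r10, sq q0, sq q1, zm v0, zm v1, sq zz])
  have ia : (v0 * v1 * v2)⁻¹ = v0 * v1 * v2 * e2 :=
    inv_eq_of_mul_eq_one_right (by rw [← mul_assoc, a2, zz])
  have za : e2 ∈ zpowers (v0 * v1 * v2) := a2 ▸ mul_mem (mem_zpowers _) (mem_zpowers _)
  obtain ⟨A, hA, -, cA⟩ := Con.el_ext (B := zpowers (v0 * v1 * v2)) (D := zpowers e2)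
    (zpowers_le.2 za) (fun x _ => hsq x) (q := v0 * v1 * v3) (fun b _ => com _ _) (hsq _)
    (notm _ _ ba)
  have aA : v0 * v1 * v2 ∈ A := (hA _).2 (Or.inl (mem_zpowers _))
  have bA : v0 * v1 * v3 ∈ A := (hA _).2 (Or.inr (by simp))
  have m0 : v0 ∈ closure ({v0 * v1, v0} : Set Q) := subset_closure (by simp)
  have m01 : v0 * v1 ∈ closure ({v0 * v1, v0} : Set Q) := subset_closure (by simp)
  have hAB : ∀ a ∈ A, ∀ b ∈ closure ({v0 * v1, v0} : Set Q), a * b = b * a := by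
    have k : ∀ y : Q, y * (v0 * v1 * v2) = v0 * v1 * v2 * y → y * (v0 * v1 * v3) = v0 * v1 * v3 * y →
        y ∈ centralizer (A : Set Q) := fun y h1 h2 a ha => by
      have l1 : zpowers (v0 * v1 * v2) ≤ centralizer {y} :=
        zpowers_le.2 (mem_centralizer_singleton_iff.2 h1.symm)
      have l2 : v0 * v1 * v3 ∈ centralizer ({y} : Set Q) := mem_centralizer_singleton_iff.2 h2.symm
      exact mem_centralizer_singleton_iff.1 (((hA a).1 ha).elim (fun k => l1 k) fun k =>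
        (mul_mem_cancel_right (inv_mem l2)).1 (l1 k))
    intro a ha b hb
    refine (closure_le (centralizer (A : Set Q))).2 ?_ hb a ha
    rintro y (hy | hy) <;> rw [show y = _ from hy] <;> refine k _ (nf _ _ ?_) (nf _ _ ?_) <;>
      simp only [mul_assoc, as r10, as r20, as r21, as r30, as r31, sq q0, sq q1, zm v0,
        zm v1, zm v2, zm v3, sq zz]
  have htop : A ⊔ closure ({v0 * v1, v0} : Set Q) = ⊤ := by
    have k0 : v0 ∈ A ⊔ closure ({v0 * v1, v0} : Set Q) := mem_sup_right m0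
    have k01 : v0 * v1 ∈ A ⊔ closure ({v0 * v1, v0} : Set Q) := mem_sup_right m01
    have k1 := (mul_mem_cancel_left k0).1 k01
    have k2 := (mul_mem_cancel_left k01).1 (mem_sup_left aA)
    have k3 := (mul_mem_cancel_left k01).1 (mem_sup_left bA)
    have kz : e2 ∈ A ⊔ closure ({v0 * v1, v0} : Set Q) := c2 ▸ mul_mem k01 k01
    have k4 := (mul_mem_cancel_left (mul_mem (mul_mem k01 k2) k3)).1 (zpowers_le.2 kz hP)
    refine eq_top_iff.2 (hW ▸ (closure_le _).2 ?_)
    rintro y (rfl | rfl | rfl | rfl | rfl | rfl)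
    exacts [k0, k1, k2, k3, k4, kz]
  refine ⟨A, closure {v0 * v1, v0}, ?_, ?_, hAB, htop, le_antisymm ?_ ?_⟩
  · refine H29.nonempty_mulEquiv_quaternion (n := 2) two_ne_zero (⟨_, aA⟩ : A) ⟨_, bA⟩ ?_ ?_ ?_ ?_ ?_
    · rw [orderOf_mk]; exact ord4 _ a2
    · exact Subtype.ext (by rw [pow_two]; exact b2.trans a2.symm)
    · refine Subtype.ext ?_
      show v0 * v1 * v3 * (v0 * v1 * v2) * (v0 * v1 * v3)⁻¹ = (v0 * v1 * v2)⁻¹
      rw [ba, ia, mul_assoc _ _ e2, zc]; group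
    · intro k
      obtain ⟨n, hn⟩ := mem_zpowers_iff.1 k
      exact notm _ _ ba (mem_zpowers_iff.2 ⟨n, congrArg Subtype.val hn⟩)
    · rw [cA, Nat.card_zpowers, ord4 _ a2]
  · refine H9.closure_equiv_dihedral _ _ (ord4 _ c2) q0 ?_ (notm _ _ (nf _ _ ?_))
    · rw [mul_inv_rev, iv q0, iv q1, ← mul_assoc, q0, one_mul]
    · simp only [mul_assoc, as r10, sq q0, zm v0, zm v1, sq zz]
  · intro x hx
    refine mem_center_iff.2 fun g => ?_
    have : A ⊔ closure ({v0 * v1, v0} : Set Q) ≤ centralizer {x} := sup_le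
      (fun a ha => mem_centralizer_singleton_iff.2 (hAB a ha x hx.2))
      (fun b hb => mem_centralizer_singleton_iff.2 (hAB x hx.1 b hb).symm)
    exact mem_centralizer_singleton_iff.1 (this (htop ▸ mem_top g))
  · rw [hcen]
    exact zpowers_le.2 ⟨(hA _).2 (Or.inl za), c2 ▸ mul_mem m01 m01⟩

end Cfsg.Agent.H20.A5C
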