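import Mathlib
import Cfsg.Agent.H20.AFB8

/-!
# Perfect isometries with Frobenius groups
-/

set_option autoImplicit false
set_option linter.unusedSectionVars false

namespace Cfsg.Agent.H20

open Cfsg Cfsg.Agent.H11 Cfsg.Agent.H18
open Cfsg.Agent.H17 (BS fs irr_isClassFunction Cg mem_fs)
open Cfsg.Agent.H19
open scoped ComplexConjugate Classical

universe u v

variable {F : Type v} [Group F] [Fintype F] {Q : Subgroup F} [Q.Normal]

variable (Q) in
/-- `Q` is an abelian normal subgroup with abelian quotient acting freely. -/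
structure Frob : Prop where
  comm : ∀ a b : Q, a * b = b * a
  free : ∀ g : F, ∀ x ∈ Q, x ≠ 1 → g * x * g⁻¹ = x → g ∈ Q
  der : commutator F ≤ Q
  nt : Nontrivial Q

variable (Q) in
/-- The automorphisms of `Q` induced by `F`. -/
abbrev fE : Subgroup (MulAut Q) := (MulAut.conjNormal : F →* MulAut Q).range

theorem exists_fE_iff (u v : Q) : (∃ σ ∈ fE Q, v = σ u) ↔ IsConj (u : F) v :=
  ⟨by rintro ⟨_, ⟨t, rfl⟩, rfl⟩; exact isConj_iff.2 ⟨t, rfl⟩, fun h =>
    (isConj_iff.1 h).elim fun t h => ⟨_, ⟨t, rfl⟩, Subtype.ext h.symm⟩⟩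

namespace Frob

variable (h : Frob Q)
include h

theorem ker_eq : (MulAut.conjNormal : F →* MulAut Q).ker = Q := by
  have := h.nt
  obtain ⟨x, hx⟩ := exists_ne (1 : Q)
  refine le_antisymm (fun g hg => h.free g x x.2 (fun h => hx (Subtype.ext h))
    (congrArg Subtype.val (DFunLike.congr_fun (MonoidHom.mem_ker.1 hg) x))) fun g hg => ?_
  exact MulEquiv.ext fun y => Subtype.ext (mul_inv_eq_iff_eq_mul.2
    (congrArg Subtype.val (h.comm ⟨g, hg⟩ y)))

theorem card_fE : Nat.card (fE Q) = Q.index := by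
  rw [← Subgroup.index_ker, h.ker_eq]

theorem fa : FA (fE Q) :=
  ⟨h.comm, by
    rintro _ ⟨t, rfl⟩ v hv h1
    exact MonoidHom.mem_ker.1 (h.ker_eq.ge
      (h.free t v v.2 (fun h => hv (Subtype.ext h)) (congrArg Subtype.val h1)))⟩

theorem indFun_eq (ψ : Q →* ℂˣ) : (fun v : Q => indFun Q (lin ψ) v) = osum (fE Q) ψ := by
  funext v
  have h1 := sum_comp_of_surjective _ (MulAut.conjNormal : F →* MulAut Q).rangeRestrict_surjective
    fun σ => lin (lac ψ σ) v
  rw [MonoidHom.ker_rangeRestrict, h.ker_eq] at h1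
  rw [H14.indFun_normal_apply, inv_mul_eq_iff_eq_mul₀ (card_ne_zero _), osum, Finset.sum_apply]
  exact h1.trans (by congr!)

theorem Cg_eq {x : F} (hx : x ∈ Q) (hx1 : x ≠ 1) : Cg x = Q :=
  le_antisymm (fun g hg => h.free g x hx hx1 (mul_inv_eq_iff_eq_mul.2
    (Subgroup.mem_centralizer_singleton_iff.1 hg))) fun g hg =>
      Subgroup.mem_centralizer_singleton_iff.2 (congrArg Subtype.val (h.comm ⟨g, hg⟩ ⟨x, hx⟩))

theorem exists_lab {ι : Type*} [Fintype ι] {o : ι → Q →* ℂˣ} (ho : Orb (fE Q) o) :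
    ∃ (m : ℕ) (ν : ι ⊕ Fin m ≃ IrrCharacter F) (a : IrrCharacter F → ℤ),
      Lab (fE Q) o (fun η v => η.1 v) ν a 1 ∧
        ∀ η : IrrCharacter F, (∃ x ∈ Q, η.1 x ≠ η.1 1) → ∃ i, η = ν (.inl i) := by
  have := finite_monoidHom_units (G := Q)
  have := Fintype.ofFinite (Q →* ℂˣ)
  have h1 : ∀ i j, classInner (indFun Q (lin (o i))) (indFun Q (lin (o j))) =
      if i = j then 1 else 0 := fun i j => by
    rw [H14.classInner_indFun_left _ _ (H14.indFun_isClassFunction _ _), h.indFun_eq, osum,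
      classInner_sum_right]
    simp only [classInner_lin]
    split_ifs with hij
    · subst hij
      simp [show ∀ σ, o i = lac (o i) σ ↔ 1 = σ from fun σ =>
        (ho.lac_injective (ho.ne i)).eq_iff (a := 1)]
    · exact Finset.sum_eq_zero fun σ _ => if_neg fun h => hij ((ho.inj i j).1 ⟨σ, h⟩)
  let ν : ι → IrrCharacter F := fun i => ⟨indFun Q (lin (o i)), isIrrCharacter_of_classInner_self
    (H14.IsCharacter.indFun _ (isCharacter_of_irr (isIrrCharacter_monoidHom _))) (by simp [h1])⟩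
  have h2 : ∀ η ∉ Set.range ν, ∀ x ∈ Q, η.1 x = η.1 1 := fun η hη x hx => by
    have h3 : ∀ v : Q, η.1 v = classInner (fun v : Q => η.1 v) (lin 1) := fun v => by
      rw [fourier h.comm (fun v : Q => η.1 v) v, ho.sum_eq, Finset.sum_eq_zero fun i _ =>
        Finset.sum_eq_zero fun σ _ => ?_]
      · simp
      · obtain ⟨_, t, rfl⟩ := σ
        have h4 := classInner_comp_mulEquiv (MulAut.conjNormal (H := Q) t) (fun v : Q => η.1 v)
          (lin (o i))
        rw [← H14.classInner_indFun_right _ (lin (o i)) (irr_isClassFunction η),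
          classInner_irr_of_ne η.2 (ν i).2 fun h => hη ⟨i, Subtype.ext h.symm⟩] at h4
        refine mul_eq_zero_of_left (Eq.trans ?_ h4) _
        exact congrArg (classInner · _) (funext fun v => (irr_isClassFunction η _ _).symm)
    exact (h3 ⟨x, hx⟩).trans (h3 1).symm
  obtain ⟨m, ν', a, L, h3⟩ := H20.exists_lab (E := fE Q) (o := o) (d := fun η v => η.1 v) (ν := ν)
    (fun i j hij => by
      by_contra hne
      have := h1 i j
      rw [show indFun Q (lin (o i)) = _ from congrArg Subtype.val hij, h1, if_pos rfl,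
        if_neg hne] at this
      exact one_ne_zero this) (Or.inl rfl)
    (fun i v _ => by simpa using congrFun (h.indFun_eq (o i)) v) fun η hη =>
      ⟨1, Or.inl rfl, fun v _ => by
        rw [h2 η hη v v.2, irr_apply_one_of_commutator_le η.2 (h.der.trans fun x hx =>
          (mem_charKer_irr_iff η.2).2 (h2 η hη x hx)), Int.cast_one]⟩
  refine ⟨m, ν', a, L, fun η ⟨x, hx, hη⟩ => ?_⟩
  by_contra! h4
  exact hη (h2 η (fun ⟨i, hi⟩ => h4 i (by rw [h3, hi])) x hx)

variable [Fintype (IrrCharacter F)] {M : Ideal AlgInt} {p : ℕ} [Fact p.Prime]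

theorem orth (u v : Q) (hu : u ≠ 1) : ∑ η : IrrCharacter F, conj (η.1 u) * η.1 v =
    if IsConj (u : F) v then (Nat.card Q : ℂ) else 0 := by
  simp only [mul_comm (conj _), column_orthogonality, isConj_comm (g := (u : F))]
  split_ifs with h1
  · rw [show Subgroup.centralizer {(v : F)} = Q from h.Cg_eq v.2 fun h2 =>
      hu (Subtype.ext (isConj_one_right.1 (h2 ▸ h1)))]
  · rfl

theorem dec (hQ : IsPGroup p Q) (hp : ¬ p ∣ Q.index)
    (hne : ∀ η : IrrCharacter F, ∀ v : Q, v ≠ 1 → η.1 v ≠ 0) :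
    Dec M p (Set.univ : Set (IrrCharacter F)) Q ⊤ fun η v => η.1 v := by
  have h0 : fs (Set.univ : Set (IrrCharacter F)) = Finset.univ := by ext; simp
  refine ⟨fun η => isGen_restrict (isGen_of_irr η.2) _, fun η _ => hne η,
    fun η t _ u v huv => huv ▸ irr_isClassFunction η _ _, fun u v hu _ => ?_,
    fun u hu x hx => ?_, fun x hx => ?_⟩
  · simp only [h0, h.orth u v hu, isConj_iff, Subgroup.mem_top, true_and, eq_comm]
  · simp only [h0, mul_comm (conj _)]
    refine column_orthogonality_of_not_isConj fun h1 => hx ?_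
    obtain ⟨k, hk⟩ := (IsPGroup.iff_orderOf.1 hQ) u
    obtain ⟨c, hc⟩ := h1
    rw [hc.orderOf_eq, Subgroup.orderOf_coe, hk]
    exact dvd_pow_self p fun h0 => hu (orderOf_eq_one_iff.1 (by rw [hk, h0, pow_zero]))
  · have hp' : p.Prime := Fact.out
    have h1 : orderOf (x ^ (orderOf x / p)) = p := orderOf_pow_orderOf_div (orderOf_pos x).ne' hx
    have h2 : x ^ (orderOf x / p) ∈ Q := (Subgroup.zpowers_le.2 (Q.pow_index_mem _))
      (mem_zpowers_pow_iff.2 (by rw [h1]; exact ((Nat.Prime.coprime_iff_not_dvd hp').2 hp).symm))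
    have h3 : x ∈ Q := h.free x _ h2 (fun h => hp'.one_lt.ne (by rw [← h1, h, orderOf_one]))
      (by group)
    have h4 : x ≠ 1 := fun h => hp'.one_lt.ne' (by simpa [h] using hx)
    refine ⟨fun v => if v = ⟨x, h3⟩ then 1 else 0, if_neg fun h => h4 (congrArg Subtype.val h).symm,
      fun v => ?_, fun v => ?_, fun η _ => by simp [finsum_eq_sum_of_fintype]⟩ <;>
      beta_reduce <;> split_ifs
    · exact one_mem _
    · exact zero_mem _
    · rw [h.Cg_eq h3 h4, mul_one, div_self (card_ne_zero _)]; exact one_mem _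
    · simp [zero_mem]

theorem perfect {G : Type u} [Group G] [Fintype G] [Fintype (IrrCharacter G)]
    {B : Set (IrrCharacter G)} {P T : Subgroup G} {d : IrrCharacter G → P → ℂ}
    (hM : IsPModular p M) (hQ : IsPGroup p Q) (hp : ¬ p ∣ Q.index) (D : Dec M p B P T d)
    (φ : Q ≃* P) (hφ : ∀ u v : Q, IsConj (u : F) v ↔ ∃ t ∈ T, (φ v : G) = t * φ u * t⁻¹) {r : ℕ}
    (hr : r * Q.index + 1 = Nat.card Q) (hk : Nat.card B = Q.index + r) :
    ∃ I ε, IsPerfectIsometry p M (Set.univ : Set (IrrCharacter F)) B I ε ∧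
      ∀ η η' : IrrCharacter F, (∃ x ∈ Q, η.1 x ≠ η.1 1) → (∃ x ∈ Q, η'.1 x ≠ η'.1 1) →
        ε η = ε η' := by
  have := h.nt
  obtain ⟨ι, _, o, ho⟩ := h.fa.exists_orb
  have h0 : ∀ {v : Q}, v ≠ 1 → φ v ≠ 1 := fun hv => by simpa using hv
  have h1 : ∀ u v : Q, u ≠ 1 → v ≠ 1 → ∑ χ ∈ fs B, conj (conj (d χ (φ u))) * conj (d χ (φ v)) =
      if IsConj (u : F) v then (Nat.card Q : ℂ) else 0 := fun u v hu hv => by
    simp only [← map_mul, ← map_sum, D.orth _ _ (h0 hu) (h0 hv), hφ, Nat.card_congr φ.toEquiv]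
    split_ifs <;> simp
  obtain ⟨m, ν, a, δ, L⟩ := ho.exists_lab (B := B) (d := fun χ v => conj (d χ (φ v)))
    (fun χ => isGen_conj (isGen_comp (D.gen χ) φ.toMonoidHom))
    (fun χ hχ v hv => by simpa using D.ne χ hχ _ (h0 hv))
    (fun χ σ hσ v => by
      obtain ⟨t, ht, h2⟩ := (hφ v (σ v)).1 ((exists_fE_iff _ _).1 ⟨σ, hσ, rfl⟩)
      simp only [D.stable χ t ht _ _ h2])
    (fun u v hu hv => by simp only [h1 u v hu hv, exists_fE_iff])
    (fun u hu => by
      have := congrArg conj (D.reg _ (h0 hu) 1 (by simpa using hM.1.one_lt.ne'))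
      simpa only [map_sum, map_mul, conj_apply_one (isCharacter_of_irr (Subtype.prop _)),
        map_zero] using this)
    (by
      have h2 := ho.card
      rw [h.card_fE, ← hr, add_left_inj] at h2
      rw [hk, h.card_fE, Nat.eq_of_mul_eq_mul_right
        (Nat.pos_of_ne_zero Subgroup.index_ne_zero_of_finite) h2])
  obtain ⟨m', ν', a', L', h2⟩ := h.exists_lab ho
  obtain ⟨v, hv⟩ := exists_ne (1 : Q)
  obtain ⟨I, ε, h3, h4, h5⟩ := L.exists_equiv L' hv (by
    rw [h.orth v v hv, ← h1 v v hv hv, Finset.sum_subtype (p := (· ∈ B)) (fs B) (by simp)])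
  refine ⟨fun η => I η, ε, perfect_of_dec hM D (h.dec hQ hp fun η v hv => ?_) φ
    ⟨fun η _ => (I η).2, fun _ _ _ _ h => I.injective (Subtype.ext h),
      fun χ hχ => ⟨I.symm ⟨χ, hχ⟩, trivial, by simp⟩⟩ (fun η _ => h3 η) fun η _ v hv => ?_,
    fun η η' hη hη' => ?_⟩
  · rw [← h5 η v hv]
    have := D.ne _ (I η).2 _ (h0 hv)
    rcases h3 η with h | h <;> simpa [h]
  · rw [← h5 η v hv]; simp
  · obtain ⟨i, rfl⟩ := h2 η hη
    obtain ⟨j, rfl⟩ := h2 η' hη'
    rw [h4, h4]

end Frob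

end Cfsg.Agent.H20
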