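import Mathlib
import Cfsg.Agent.H45.OnDefs

/-! Project ON, piece SZ: comparison of the orders of the Sylow 2-subgroups. -/

set_option autoImplicit false

namespace Cfsg.Agent.H20.OnSz

open Cfsg.Agent.H45.On

universe u v

theorem sz (hG : GrowStmt.{u}) : SzStmt.{u, v} := by
  intro G Ω _ _ _ _ S T e2 e3 ix x y M M' Q B hM hM' hxy hQ hB
  obtain ⟨g, -, g2, -, g4⟩ := hG M (MulAction.stabilizer G y) B Q hB.2.1
    (fun b hb => S.fx hM' b (hB.1 hb).1)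
    (fun b hb => e2 x y M M' b hM hM' (hB.1 hb).1 (hB.1 hb).2)
    (fun b hb a ha => (e3 x y M M' hM hM' hxy a ha b (hB.1 hb)).symm) hQ (ix x y M hM hxy)
  refine Nat.card_le_card_of_injective (fun b : B => (⟨_, g4 b.1 b.2⟩ : Q)) fun b b' h => ?_
  have h1 : b.1⁻¹ * (g * b.1 * g⁻¹) = b'.1⁻¹ * (g * b'.1 * g⁻¹) := congrArg Subtype.val h
  by_contra hne
  refine g2 (T.cn hM' (a := b.1 * b'.1⁻¹) (M'.mul_mem (hB.1 b.2).1 (M'.inv_mem (hB.1 b'.2).1))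
    (fun e => hne (Subtype.ext (mul_inv_eq_one.1 e))) ?_).2
  calc g * (b.1 * b'.1⁻¹) = b.1 * (b.1⁻¹ * (g * b.1 * g⁻¹)) * g * b'.1⁻¹ := by group
    _ = _ := by rw [h1]; group

end Cfsg.Agent.H20.OnSz
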