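import Mathlib.GroupTheory.SpecificGroups.Dihedral

/-!
A model of the Sylow 2-subgroup `D₈ ≀ 2` of `S₄ ≀ 2`: the number with binary digits
`i₀, …, i₆` stands for `a₁^i₀ b₁^i₁ x₁^i₂ a₂^i₃ b₂^i₄ x₂^i₅ t^i₆`.
-/

set_option autoImplicit false

namespace Cfsg.Agent.H20.QE

open Subgroup

def sw (j : ℕ) : ℕ :=
  Nat.lor (Nat.lor (Nat.land j 64) (Nat.shiftLeft (Nat.land j 7) 3)) (Nat.land (Nat.shiftRight j 3) 7)

def mu0 (i j : ℕ) : ℕ :=
  Nat.xor (Nat.xor i j) (Nat.shiftLeft (Nat.land (Nat.land (Nat.shiftRight i 1) j) 9) 2)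

def mu (i j : ℕ) : ℕ := mu0 i (bif Nat.ble 64 i then sw j else j)

def iv0 (i : ℕ) : ℕ := Nat.xor i (Nat.shiftLeft (Nat.land (Nat.land (Nat.shiftRight i 1) i) 9) 2)

def iv (i : ℕ) : ℕ := bif Nat.ble 64 i then sw (iv0 i) else iv0 i

structure W : Type where
  v : ℕ
  lt : v < 128

theorem W.ext' {i j : W} (h : i.v = j.v) : i = j := by
  cases i
  cases j
  congr

instance : DecidableEq W := fun i j => decidable_of_iff (Nat.beq i.v j.v = true) (by
  rw [Nat.beq_eq]
  exact ⟨W.ext', fun h => by rw [h]⟩)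

def c (n : ℕ) : W := ⟨Nat.mod n 128, Nat.mod_lt _ (by decide)⟩

theorem c_val (n : ℕ) : (c n).v = n % 128 := rfl

theorem c_v (i : W) : c i.v = i := W.ext' (Nat.mod_eq_of_lt i.lt)

noncomputable def allN (f : ℕ → Bool) (n : ℕ) : Bool := Nat.rec true (fun k ih => f k && ih) n

theorem allN_iff (f : ℕ → Bool) (n : ℕ) : allN f n = true ↔ ∀ k < n, f k = true := by
  induction n with
  | zero => simp [allN]
  | succ n ih =>
    show (f n && allN f n) = true ↔ _
    rw [Bool.and_eq_true, ih, Nat.forall_lt_succ_right, and_comm]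

noncomputable instance (priority := high) decAll (P : W → Prop) [h : DecidablePred P] :
    Decidable (∀ i, P i) :=
  decidable_of_iff (allN (fun k => decide (P (c k))) 128 = true) (by
    rw [allN_iff]
    exact ⟨fun H i => by simpa [c_v] using H i.v i.lt, fun H k _ => by simpa using H _⟩)

def mW (i j : W) : W := c (mu i.v j.v)

def iW (i : W) : W := c (iv i.v)

def As (g : W) : Prop := ∀ i j, mW (mW i g) j = mW i (mW g j)

noncomputable instance (g : W) : Decidable (As g) := by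
  unfold As
  infer_instance

theorem one_mW : ∀ i, mW (c 0) i = i := by decide +kernel

theorem mW_one : ∀ i, mW i (c 0) = i := by decide +kernel

theorem iW_mW : ∀ i, mW (iW i) i = c 0 := by decide +kernel

theorem As.mul {g h : W} (hg : As g) (hh : As h) : As (mW g h) := fun i j => by
  rw [← hg, hh, hg, hh]

theorem as0 : As (c 0) := fun i j => by rw [mW_one, one_mW]

theorem as1 : As (c 1) := by decide +kernel

theorem as2 : As (c 2) := by decide +kernel

theorem as64 : As (c 64) := by decide +kernel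

theorem as_lt8 : ∀ n < 8, As (c n) := by
  have e : mW (c 1) (c 2) = c 3 ∧ mW (c 3) (c 3) = c 4 ∧ mW (c 1) (c 4) = c 5 ∧
      mW (c 2) (c 4) = c 6 ∧ mW (c 3) (c 4) = c 7 := by decide +kernel
  have h3 : As (c 3) := e.1 ▸ as1.mul as2
  have h4 : As (c 4) := e.2.1 ▸ h3.mul h3
  intro n hn
  interval_cases n
  exacts [as0, as1, as2, h3, h4, e.2.2.1 ▸ as1.mul h4, e.2.2.2.1 ▸ as2.mul h4,
    e.2.2.2.2 ▸ h3.mul h4]

theorem mW_dec : ∀ i : W, i = mW (mW (c (i.v % 8)) (mW (mW (c 64) (c (i.v / 8 % 8))) (c 64)))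
    (if i.v < 64 then c 0 else c 64) := by decide +kernel

theorem as_all (i : W) : As i := by
  rw [mW_dec i]
  refine ((as_lt8 _ (Nat.mod_lt _ (by decide))).mul
    ((as64.mul (as_lt8 _ (Nat.mod_lt _ (by decide)))).mul as64)).mul ?_
  split_ifs
  exacts [as0, as64]

instance : Group W where
  mul := mW
  one := c 0
  inv := iW
  mul_assoc i j k := as_all j i k
  one_mul := one_mW
  mul_one := mW_one
  inv_mul_cancel := iW_mW

def eqv : W ≃ Fin 128 where
  toFun i := ⟨i.v, i.lt⟩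
  invFun i := ⟨i.1, i.2⟩
  left_inv _ := rfl
  right_inv _ := rfl

instance : Finite W := Finite.of_equiv _ eqv.symm

theorem card_W : Nat.card W = 128 := by rw [Nat.card_congr eqv, Nat.card_fin]

/-- The digits of `i` selected by `m` vanish. -/
def Mk (m : ℕ) (i : W) : Prop := Nat.land i.v m = 0

instance (m : ℕ) (i : W) : Decidable (Mk m i) :=
  decidable_of_iff (Nat.beq (Nat.land i.v m) 0 = true) Nat.beq_eq.to_iff

def Ok (m : ℕ) : Prop := ∀ i, Mk m i → Mk m i⁻¹ ∧ ∀ j, Mk m j → Mk m (i * j)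

noncomputable instance (m : ℕ) : Decidable (Ok m) := by
  unfold Ok
  infer_instance

theorem mk_one (m : ℕ) : Mk m 1 := Nat.zero_and m

def sub (m : ℕ) [h : Fact (Ok m)] : Subgroup W where
  carrier := {i | Mk m i}
  one_mem' := mk_one m
  mul_mem' hi hj := (h.out _ hi).2 _ hj
  inv_mem' hi := (h.out _ hi).1

theorem mem_sub {m : ℕ} [Fact (Ok m)] {i : W} : i ∈ sub m ↔ Mk m i := Iff.rfl

theorem card_sub (m : ℕ) [Fact (Ok m)] :
    Nat.card (sub m) = ((Finset.range 128).filter fun n => Nat.land n m = 0).card := by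
  rw [← Nat.card_eq_finsetCard]
  refine Nat.card_congr ⟨fun i => ⟨i.1.v, ?_⟩, fun n => ⟨⟨n.1, ?_⟩, ?_⟩, fun _ => rfl, fun _ => rfl⟩
  · exact Finset.mem_filter.2 ⟨Finset.mem_range.2 i.1.lt, i.2⟩
  · exact Finset.mem_range.1 (Finset.mem_filter.1 n.2).1
  · exact (Finset.mem_filter.1 n.2).2

instance : Fact (Ok 64) := ⟨by decide +kernel⟩
instance : Fact (Ok 65) := ⟨by decide +kernel⟩
instance : Fact (Ok 66) := ⟨by decide +kernel⟩
instance : Fact (Ok 80) := ⟨by decide +kernel⟩
instance : Fact (Ok 81) := ⟨by decide +kernel⟩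
instance : Fact (Ok 87) := ⟨by decide +kernel⟩
instance : Fact (Ok 88) := ⟨by decide +kernel⟩
instance : Fact (Ok 89) := ⟨by decide +kernel⟩
instance : Fact (Ok 91) := ⟨by decide +kernel⟩
instance : Fact (Ok 120) := ⟨by decide +kernel⟩

theorem card_65 : Nat.card (sub 65) = 32 := by rw [card_sub]; decide +kernel
theorem card_66 : Nat.card (sub 66) = 32 := by rw [card_sub]; decide +kernel
theorem card_120 : Nat.card (sub 120) = 8 := by rw [card_sub]; decide +kernel

def sel (n : ℕ) (i p : W) : W := bif Nat.beq (Nat.land i.v n) 0 then 1 else p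

/-- The word of `i < 64` evaluated at `p₀, …, p₅`. -/
def lin (p0 p1 p2 p3 p4 p5 i : W) : W :=
  sel 1 i p0 * sel 2 i p1 * sel 4 i p2 * (sel 8 i p3 * sel 16 i p4 * sel 32 i p5)

theorem lin_self : ∀ i, Mk 64 i → lin (c 1) (c 2) (c 4) (c 8) (c 16) (c 32) i = i := by
  decide +kernel

theorem mk_pow {m k : ℕ} {i : W} (hk : k < 7) (h : Mk m i) (h1 : Nat.land i.v (2 ^ k) ≠ 0) :
    Mk m (c (2 ^ k)) := by
  have e : (c (2 ^ k)).v = 2 ^ k := Nat.mod_eq_of_lt (Nat.pow_lt_pow_right (by decide) hk)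
  unfold Mk
  rw [e]
  have hi : i.v.testBit k = true := by
    by_contra hn
    refine h1 (Nat.eq_of_testBit_eq fun l => ?_)
    show (i.v &&& 2 ^ k).testBit l = _
    rw [Nat.testBit_and, Nat.testBit_two_pow, Nat.zero_testBit]
    by_cases hl : k = l
    · subst hl
      simpa using hn
    · simp [hl]
  have hm : m.testBit k = false := by
    have := congrArg (Nat.testBit · k) h
    change (i.v &&& m).testBit k = _ at this
    simpa [hi] using this
  refine Nat.eq_of_testBit_eq fun l => ?_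
  show (2 ^ k &&& m).testBit l = _
  rw [Nat.testBit_and, Nat.testBit_two_pow, Nat.zero_testBit]
  by_cases hl : k = l
  · subst hl
    simp [hm]
  · simp [hl]

theorem sel_ind {Q : W → W → Prop} (h1 : Q 1 1) {m k : ℕ} {i p q : W} (hk : k < 7) (h : Mk m i)
    (hq : Mk m (c (2 ^ k)) → Q p q) : Q (sel (2 ^ k) i p) (sel (2 ^ k) i q) := by
  unfold sel
  cases hb : Nat.beq (Nat.land i.v (2 ^ k)) 0
  · exact hq (mk_pow hk h fun e => by rw [e] at hb; exact absurd hb (by decide))
  · exact h1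

theorem lin_ind {Q : W → W → Prop} (h1 : Q 1 1)
    (hm : ∀ {p q p' q'}, Q p q → Q p' q' → Q (p * p') (q * q')) {m : ℕ}
    {q0 q1 q2 q3 q4 q5 p0 p1 p2 p3 p4 p5 : W} (h0 : Mk m (c 1) → Q q0 p0)
    (h2 : Mk m (c 2) → Q q1 p1) (h4 : Mk m (c 4) → Q q2 p2) (h8 : Mk m (c 8) → Q q3 p3)
    (h16 : Mk m (c 16) → Q q4 p4) (h32 : Mk m (c 32) → Q q5 p5) {i : W} (h : Mk m i) :
    Q (lin q0 q1 q2 q3 q4 q5 i) (lin p0 p1 p2 p3 p4 p5 i) :=
  hm (hm (hm (sel_ind (k := 0) h1 (by decide) h h0) (sel_ind (k := 1) h1 (by decide) h h2))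
    (sel_ind (k := 2) h1 (by decide) h h4))
    (hm (hm (sel_ind (k := 3) h1 (by decide) h h8) (sel_ind (k := 4) h1 (by decide) h h16))
      (sel_ind (k := 5) h1 (by decide) h h32))

theorem lin_mk {m : ℕ} [Fact (Ok m)] {p0 p1 p2 p3 p4 p5 : W} (h0 : Mk m (c 1) → Mk m p0)
    (h2 : Mk m (c 2) → Mk m p1) (h4 : Mk m (c 4) → Mk m p2) (h8 : Mk m (c 8) → Mk m p3)
    (h16 : Mk m (c 16) → Mk m p4) (h32 : Mk m (c 32) → Mk m p5) {i : W} (h : Mk m i) :
    Mk m (lin p0 p1 p2 p3 p4 p5 i) :=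
  lin_ind (Q := fun _ q => q ∈ sub m) (q0 := 1) (q1 := 1) (q2 := 1) (q3 := 1) (q4 := 1) (q5 := 1)
    (one_mem _) (fun a b => mul_mem a b) h0 h2 h4 h8 h16 h32 h

theorem mk_64 {m : ℕ} {i : W} (hm : ¬ Mk m (c 64)) (h : Mk m i) : Mk 64 i := by
  by_contra hn
  exact hm (mk_pow (k := 6) (by decide) h hn)

/-! ### The homomorphism defined by generators -/

variable {G : Type*} [Group G]

/-- The relations of `D₈ ≀ 2`. -/
structure Rel (a b x t : G) : Prop where
  aa : a * a = 1
  bb : b * b = 1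
  xx : x * x = 1
  tt : t * t = 1
  ba : b * a = a * b * x
  xa : x * a = a * x
  xb : x * b = b * x
  cm : ∀ u ∈ closure ({a, b, x} : Set G), ∀ v ∈ closure ({a, b, x} : Set G),
    t * v * t * u = u * (t * v * t)

def dd (a b x : G) (n : ℕ) : G := a ^ (n % 2) * b ^ (n / 2 % 2) * x ^ (n / 4 % 2)

def ee (a b x t : G) (i : W) : G :=
  dd a b x (i.v % 8) * (t * dd a b x (i.v / 8 % 8) * t) * t ^ (i.v / 64)

theorem dd_mem (a b x : G) (n : ℕ) : dd a b x n ∈ closure ({a, b, x} : Set G) :=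
  mul_mem (mul_mem (pow_mem (subset_closure (by simp)) _) (pow_mem (subset_closure (by simp)) _))
    (pow_mem (subset_closure (by simp)) _)

namespace Rel

variable {a b x t : G} (h : Rel a b x t)
include h

theorem dd_mul : ∀ i < 8, ∀ j < 8, dd a b x (mu0 i j) = dd a b x i * dd a b x j := by
  have aa : ∀ y, a * (a * y) = y := fun y => by rw [← mul_assoc, h.aa, one_mul]
  have bb : ∀ y, b * (b * y) = y := fun y => by rw [← mul_assoc, h.bb, one_mul]
  have xx : ∀ y, x * (x * y) = y := fun y => by rw [← mul_assoc, h.xx, one_mul]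
  have ba : ∀ y, b * (a * y) = a * (b * (x * y)) := fun y => by
    rw [← mul_assoc, h.ba, mul_assoc, mul_assoc]
  have xa : ∀ y, x * (a * y) = a * (x * y) := fun y => by rw [← mul_assoc, h.xa, mul_assoc]
  have xb : ∀ y, x * (b * y) = b * (x * y) := fun y => by rw [← mul_assoc, h.xb, mul_assoc]
  have key : ∀ i < 8, ∀ j < 8, ∀ y, dd a b x (mu0 i j) * y = dd a b x i * (dd a b x j * y) := by
    intro i hi j hj y
    interval_cases i <;> interval_cases j <;> simp [dd, mu0, mul_assoc, aa, bb, xx, ba, xa, xb]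
  intro i hi j hj
  simpa using key i hi j hj 1

theorem ee_mul (i j : W) : ee a b x t (i * j) = ee a b x t i * ee a b x t j := by
  have key : ∀ i j : W, (i * j).v % 8 = mu0 (i.v % 8) (if i.v < 64 then j.v % 8 else j.v / 8 % 8) ∧
      (i * j).v / 8 % 8 = mu0 (i.v / 8 % 8) (if i.v < 64 then j.v / 8 % 8 else j.v % 8) ∧
      (i * j).v / 64 = (i.v / 64 + j.v / 64) % 2 := by decide +kernel
  obtain ⟨k1, k2, k3⟩ := key i j
  have l8 : ∀ n : ℕ, n % 8 < 8 := fun n => Nat.mod_lt _ (by decide)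
  have tt : ∀ y, t * (t * y) = y := fun y => by rw [← mul_assoc, h.tt, one_mul]
  have cm : ∀ m n y, t * (dd a b x m * (t * (dd a b x n * y))) =
      dd a b x n * (t * (dd a b x m * (t * y))) := fun m n y => by
    have := congrArg (· * y) (h.cm _ (dd_mem a b x n) _ (dd_mem a b x m))
    simpa only [mul_assoc] using this
  have cm2 : ∀ m l n y, t * (dd a b x m * (dd a b x l * (t * (dd a b x n * y)))) =
      dd a b x n * (t * (dd a b x m * (dd a b x l * (t * y)))) := fun m l n y => by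
    have := congrArg (· * y) (h.cm _ (dd_mem a b x n) _ (mul_mem (dd_mem a b x m) (dd_mem a b x l)))
    simpa only [mul_assoc] using this
  have t2 : ∀ n, t ^ (n % 2) = t ^ n := fun n => by
    conv_rhs => rw [← Nat.div_add_mod n 2, pow_add, pow_mul, sq, h.tt, one_pow, one_mul]
  unfold ee
  rw [k1, k2, k3, t2, pow_add]
  have hi := i.lt
  split_ifs with hl
  · rw [h.dd_mul _ (l8 _) _ (l8 _), h.dd_mul _ (l8 _) _ (l8 _), show i.v / 64 = 0 by omega]
    simp only [mul_assoc, pow_zero, one_mul, mul_one]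
    rw [cm, tt]
  · rw [h.dd_mul _ (l8 _) _ (l8 _), h.dd_mul _ (l8 _) _ (l8 _), show i.v / 64 = 1 by omega]
    simp only [mul_assoc, pow_one, tt]
    rw [cm2, tt]

/-- The homomorphism defined by elements satisfying the relations. -/
def hom : W →* G := MonoidHom.mk' (ee a b x t) h.ee_mul

theorem hom_apply (i : W) : h.hom i = ee a b x t i := rfl

theorem hom_1 : h.hom (c 1) = a := by simp [hom_apply, ee, dd, c_val, h.tt]
theorem hom_2 : h.hom (c 2) = b := by simp [hom_apply, ee, dd, c_val, h.tt]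
theorem hom_4 : h.hom (c 4) = x := by simp [hom_apply, ee, dd, c_val, h.tt]
theorem hom_64 : h.hom (c 64) = t := by simp [hom_apply, ee, dd, c_val, h.tt]

theorem hom_mem {K : Subgroup G} (ha : a ∈ K) (hb : b ∈ K) (hx : x ∈ K) (ht : t ∈ K) (i : W) :
    h.hom i ∈ K := by
  have : ∀ n, dd a b x n ∈ K := fun n =>
    mul_mem (mul_mem (pow_mem ha _) (pow_mem hb _)) (pow_mem hx _)
  exact mul_mem (mul_mem (this _) (mul_mem (mul_mem ht (this _)) ht)) (pow_mem ht _)

end Rel

/-- A homomorphism from the model is injective if it does not kill the central involution. -/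
theorem inj_of {e : W →* G} (h : e (c 36) ≠ 1) : Function.Injective e := by
  let f : W → W := fun i => if i = c 36 then i else
    if c 1 * i ≠ i * c 1 then c 1 * i * (c 1)⁻¹ * i⁻¹ else
    if c 2 * i ≠ i * c 2 then c 2 * i * (c 2)⁻¹ * i⁻¹ else c 64 * i * (c 64)⁻¹ * i⁻¹
  have key : ∀ i : W, i ≠ 1 → f (f (f (f (f (f i))))) = c 36 := by decide +kernel
  have st : ∀ i, e i = 1 → e (f i) = 1 := fun i hi => by
    simp only [f]
    split_ifs <;> simp [hi]
  refine (injective_iff_map_eq_one e).2 fun i hi => ?_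
  by_contra hn
  exact h (key i hn ▸ st _ (st _ (st _ (st _ (st _ (st _ hi))))))

end Cfsg.Agent.H20.QE
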