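import Cfsg.Agent.H20.QEF
import Cfsg.Agent.H71.QADefs
import Cfsg.Agent.H82.Extremal

/-!
Groups of even characteristic with Sylow 2-subgroup `D₈ ≀ 2`: `T₀ = D₈ × D₈` is weakly closed,
`N(T₀) = T` and `C(x₁) ∩ C(x₂) = T₀`.
-/

set_option autoImplicit false

namespace Cfsg.Agent.H20.QE

open Cfsg Cfsg.Agent.H98 Cfsg.Agent.H84 Cfsg.Agent.H71.NG Cfsg.Agent.H72.NG Cfsg.Agent.H71.QA
  Subgroup
open scoped commutatorElement

variable {G : Type*} [Group G]

theorem mem_O_of_stab [Finite G] {N Y : Subgroup G} (hN : Ch2 N) (hY : IsPGroup 2 Y)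
    (hn : N ≤ normalizer (Y : Set G)) {u : G} (hu : u ∈ N) (hc : u ∈ centralizer (Y : Set G))
    (h : ∀ q ∈ pCoreOf 2 N, ⁅q, u⁆ ∈ Y) : u ∈ pCoreOf 2 N := by
  have nQ := le_normalizer_pCoreOf 2 N
  let R := N ⊓ centralizer (Y : Set G) ⊓ H53.commStab (pCoreOf 2 N) (Y ⊓ pCoreOf 2 N) inf_le_right
  have hR : IsPGroup 2 R := pg_of_odd fun y hy ho =>
    Ch2.eq_one hN hy.1.1 ho (odd_cent ho hY hy.1.2 (commutator_le.2 fun q hq w hw =>
      ((zpowers_le.2 hy.2 hw).2 q hq).1))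
  refine le_pCoreOf (N := R) (inf_le_left.trans inf_le_left) (inf_le_normalizer_inf
    (inf_le_normalizer_inf le_normalizer (le_normalizer_centralizer hn))
    (H84.le_normalizer_commStab _ nQ (inf_le_normalizer_inf hn nQ))) hR ⟨⟨hu, hc⟩, nQ hu, fun q hq =>
      ⟨h q hq, commutator_le_left_of_le_normalizer nQ (commutator_mem_commutator hq hu)⟩⟩

theorem comm_of_odd_pow {y u : G} (ho : Odd (orderOf y)) (k : ℕ)
    (h : y ^ 2 ^ k * u = u * y ^ 2 ^ k) : y * u = u * y :=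
  mem_c1.1 (mem_of_odd_pow (H := centralizer {u}) ho (by rw [pow_orderOf_eq_one]; exact one_mem _)
    (mem_c1.2 h))

/-- `g` conjugates `e i` to `e j`. -/
def R (e : W →* G) (g : G) (i j : W) : Prop := g * e i * g⁻¹ = e j

/-- The subgroup defined by a mask. -/
def P (e : W →* G) (m : ℕ) [Fact (Ok m)] : Subgroup G := (sub m).map e

variable {e : W →* G} {g h : G} {i j l i' j' : W}

theorem mem_P {m : ℕ} [Fact (Ok m)] : g ∈ P e m ↔ ∃ i, Mk m i ∧ e i = g := Iff.rfl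

theorem e_mem_P {m : ℕ} [Fact (Ok m)] (h : Mk m i) : e i ∈ P e m := ⟨i, h, rfl⟩

theorem P_le (m : ℕ) [Fact (Ok m)] : P e m ≤ e.range := map_le_range _ _

theorem R.one : R e g 1 1 := by simp [R]

theorem R.refl (i : W) : R e 1 i i := by simp [R]

theorem R.mul (a : R e g i j) (b : R e g i' j') : R e g (i * i') (j * j') := by
  unfold R at *
  rw [map_mul, map_mul, ← a, ← b]
  group

theorem R.inv (a : R e g i j) : R e g i⁻¹ j⁻¹ := by
  unfold R at *
  rw [map_inv, map_inv, ← a]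
  group

theorem R.comp (a : R e g i j) (b : R e h j l) : R e (h * g) i l := by
  unfold R at *
  rw [← b, ← a]
  group

theorem R.symm (a : R e g i j) : R e g⁻¹ j i := by
  unfold R at *
  rw [← a]
  group

theorem R.of_e (l i : W) : R e (e l) i (l * i * l⁻¹) := by simp [R]

theorem R.of_e' (l : W) (h : l * i * l⁻¹ = j) : R e (e l) i j := h ▸ R.of_e l i

theorem R.cast (a : R e g i j) (h1 : i = i') (h2 : j = j') : R e g i' j' := h1 ▸ h2 ▸ a

theorem R.conj (a : R e g i j) (l : W) :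
    R e (e l * g * (e l)⁻¹) (l * i * l⁻¹) (l * j * l⁻¹) := by
  unfold R at *
  simp only [map_mul, map_inv, ← a]
  group

theorem R_self : R e g i i ↔ g * e i = e i * g := mul_inv_eq_iff_eq_mul

theorem R.mem_c (a : R e g i i) : g ∈ centralizer {e i} := mem_c1.2 (R_self.1 a)

theorem R_of_mem_c (a : g ∈ centralizer {e i}) : R e g i i := R_self.2 (mem_c1.1 a)

theorem R.of_odd (ho : Odd (orderOf g)) (k : ℕ) (a : R e (g ^ 2 ^ k) i i) : R e g i i :=
  R_self.2 (comm_of_odd_pow ho k (R_self.1 a))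

theorem R_lin {m : ℕ} (hm : ¬ Mk m (c 64)) {p0 p1 p2 p3 p4 p5 : W}
    (h0 : Mk m (c 1) → R e g (c 1) p0) (h2 : Mk m (c 2) → R e g (c 2) p1)
    (h4 : Mk m (c 4) → R e g (c 4) p2) (h8 : Mk m (c 8) → R e g (c 8) p3)
    (h16 : Mk m (c 16) → R e g (c 16) p4) (h32 : Mk m (c 32) → R e g (c 32) p5) {i : W}
    (h : Mk m i) : R e g i (lin p0 p1 p2 p3 p4 p5 i) :=
  (lin_ind (Q := R e g) R.one R.mul h0 h2 h4 h8 h16 h32 h).cast (lin_self i (mk_64 hm h)) rfl

theorem R_fix {m : ℕ} (hm : ¬ Mk m (c 64)) (h0 : Mk m (c 1) → R e g (c 1) (c 1))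
    (h2 : Mk m (c 2) → R e g (c 2) (c 2)) (h4 : Mk m (c 4) → R e g (c 4) (c 4))
    (h8 : Mk m (c 8) → R e g (c 8) (c 8)) (h16 : Mk m (c 16) → R e g (c 16) (c 16))
    (h32 : Mk m (c 32) → R e g (c 32) (c 32)) {i : W} (h : Mk m i) : R e g i i :=
  (R_lin hm h0 h2 h4 h8 h16 h32 h).cast rfl (lin_self i (mk_64 hm h))

theorem R_iter {m : ℕ} {f : W → W} (hf : ∀ i, Mk m i → R e g i (f i) ∧ Mk m (f i)) (n : ℕ) (i : W)
    (hi : Mk m i) : R e (g ^ n) i (f^[n] i) := by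
  induction n generalizing i with
  | zero => simpa using R.refl i
  | succ n ih =>
    rw [pow_succ]
    exact (hf i hi).1.comp (ih _ (hf i hi).2)

theorem exists_R {X : Subgroup G} (h : cj g X ≤ e.range) (hi : e i ∈ X) : ∃ j, R e g i j := by
  obtain ⟨j, hj⟩ := h (conj_mem_map_conj hi)
  exact ⟨j, hj.symm⟩

theorem exists_R_P {m m' : ℕ} [Fact (Ok m)] [Fact (Ok m')] (h : cj g (P e m) ≤ P e m')
    (hi : Mk m i) : ∃ j, Mk m' j ∧ R e g i j := by
  obtain ⟨j, hj, h'⟩ := h (conj_mem_map_conj (e_mem_P hi))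
  exact ⟨j, hj, h'.symm⟩

theorem cj_P_le {m m' : ℕ} [Fact (Ok m)] [Fact (Ok m')]
    (h : ∀ i, Mk m i → ∃ j, Mk m' j ∧ R e g i j) : cj g (P e m) ≤ P e m' :=
  map_conj_le_iff.2 fun _ ⟨i, hi, e'⟩ => by
    obtain ⟨j, hj, r⟩ := h i hi
    exact ⟨j, hj, e' ▸ r.symm.symm ▸ by rw [inv_inv]⟩

theorem norm_P [Finite G] {m : ℕ} [Fact (Ok m)] (h : ∀ i, Mk m i → ∃ j, Mk m j ∧ R e g i j) :
    g ∈ normalizer (P e m : Set G) := mem_norm_of_cj_le (cj_P_le h)

theorem e_norm_P [Finite G] {m : ℕ} [Fact (Ok m)] (h : ∀ i, Mk m i → Mk m (l * i * l⁻¹)) :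
    e l ∈ normalizer (P e m : Set G) := norm_P fun i hi => ⟨_, h i hi, R.of_e l i⟩

theorem norm_R {m : ℕ} [Fact (Ok m)] (h : g ∈ normalizer (P e m : Set G)) (hi : Mk m i) :
    ∃ j, Mk m j ∧ R e g i j := exists_R_P (cj_eq_of_mem_normalizer h).le hi

/-- The standing hypothesis. -/
structure St (e : W →* G) : Prop where
  inj : Function.Injective e
  ec : EC e.range

namespace St

variable (s : St e)
include s

theorem eq_iff (a : R e g i j) (b : R e g i' j') : i = i' ↔ j = j' := by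
  unfold R at a b
  rw [← s.inj.eq_iff, ← s.inj.eq_iff (a := j), ← a, ← b, mul_left_inj, mul_right_inj]

theorem uniq (a : R e g i j) (b : R e g i j') : j = j' := (s.eq_iff a b).1 rfl

theorem of_e (a : R e (e l) i j) : l * i * l⁻¹ = j := s.uniq (R.of_e l i) a

theorem sq (a : R e g i j) (h : i * i = 1) : j * j = 1 := (s.eq_iff (a.mul a) R.one).1 h

theorem comm (a : R e g i j) (b : R e g i' j') (h : i * i' = i' * i) : j * j' = j' * j :=
  (s.eq_iff (a.mul b) (b.mul a)).1 h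

theorem ne (a : R e g i j) (b : R e g i' j') (h : i ≠ i') : j ≠ j' := fun e' =>
  h ((s.eq_iff a b).2 e')

theorem ne_one (h : i ≠ 1) : e i ≠ 1 := fun e' => h (s.inj (e'.trans (map_one e).symm))

theorem mk_of_mem {m : ℕ} [Fact (Ok m)] (h : e i ∈ P e m) : Mk m i := by
  obtain ⟨j, hj, e'⟩ := h
  exact s.inj e' ▸ hj

theorem mk_of_norm {m : ℕ} [Fact (Ok m)] (h : g ∈ normalizer (P e m : Set G)) (a : R e g i j)
    (hi : Mk m i) : Mk m j := by
  obtain ⟨j', h1, h2⟩ := norm_R h hi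
  exact s.uniq h2 a ▸ h1

theorem card_P (m : ℕ) [Fact (Ok m)] : Nat.card (P e m) = Nat.card (sub m) :=
  card_map_of_injective s.inj

theorem pgT : IsPGroup 2 e.range := s.ec.syl.isPGroup

theorem pgP (m : ℕ) [Fact (Ok m)] : IsPGroup 2 (P e m) := s.pgT.to_le (P_le m)

theorem loc {m : ℕ} [Fact (Ok m)] (hi : Mk m i) (h1 : i ≠ 1) :
    IsTwoLocal (normalizer (P e m : Set G)) :=
  loc_of (s.pgP m) (ne_bot_of_mem (e_mem_P hi) (s.ne_one h1))

theorem eq_one (hg : g ∈ e.range) (ho : Odd (orderOf g)) : g = 1 := eq_one_of_odd s.pgT hg ho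

theorem mk64 {p q r u p' q' r' u' : W} (h : E16 p q r u) (a : R e g p p') (b : R e g q q')
    (a' : R e g r r') (b' : R e g u u') : Mk 64 p' := by
  obtain ⟨h1, h2, h3, h4, h5, h6, h7, h8, h9, h10, n1, n2, n3, n4, n5, n6, m1, m2, m3, m4, m5, m6,
    m7, m8⟩ := h
  by_contra hn
  rcases e16 p' hn (s.sq a h1) q' (s.comm a b h5) (s.sq b h2) (s.ne b R.one n1) (s.ne b a n2) r'
    (s.comm a a' h6) (s.comm b a' h8) (s.sq a' h3) (s.ne a' R.one n3) (s.ne a' a n4) (s.ne a' b n5)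
    (s.ne a' (a.mul b) n6) u' (s.comm a b' h7) (s.comm b b' h9) (s.comm a' b' h10) (s.sq b' h4) with
    h | h | h | h | h | h | h | h
  exacts [s.ne b' R.one m1 h, s.ne b' a m2 h, s.ne b' b m3 h, s.ne b' a' m4 h,
    s.ne b' (a.mul b) m5 h, s.ne b' (a.mul a') m6 h, s.ne b' (b.mul a') m7 h,
    s.ne b' ((a.mul b).mul a') m8 h]

/-- An automorphism of `T₀` permutes `x₁` and `x₂`. -/
theorem norm_x1 (hg : g ∈ normalizer (P e 64 : Set G)) :
    R e g (c 4) (c 4) ∨ R e g (c 4) (c 32) := by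
  obtain ⟨p, hp, a⟩ := norm_R hg (i := c 1) (by decide)
  obtain ⟨r, hr, b⟩ := norm_R hg (i := c 2) (by decide)
  obtain ⟨u, hu, a'⟩ := norm_R hg (i := c 8) (by decide)
  obtain ⟨v, hv, b'⟩ := norm_R hg (i := c 16) (by decide)
  have w : R e g (c 4) (p * r * (p * r)) := ((a.mul b).mul (a.mul b)).cast (by decide) rfl
  rcases fA p hp (s.sq a (by decide)) r hr (s.sq b (by decide)) (s.ne w R.one (by decide)) with
    h | h | h
  · exact Or.inl (h ▸ w)
  · exact Or.inr (h ▸ w)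
  · exact absurd (fD u (h u hu (s.comm a' a (by decide)) (s.comm a' b (by decide))) v hv)
      (s.ne (a'.mul b') (b'.mul a') (by decide))

variable [Finite G]

omit s in
theorem T_norm {m : ℕ} [Fact (Ok m)] (h : ∀ l i, Mk m i → Mk m (l * i * l⁻¹)) :
    e.range ≤ normalizer (P e m : Set G) := by
  rintro _ ⟨l, rfl⟩
  exact e_norm_P (h l)

omit s in
theorem T0_norm {m : ℕ} [Fact (Ok m)] (h : ∀ l, Mk 64 l → ∀ i, Mk m i → Mk m (l * i * l⁻¹)) :
    P e 64 ≤ normalizer (P e m : Set G) := by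
  rintro _ ⟨l, hl, rfl⟩
  exact e_norm_P (h l hl)

omit s in
theorem t_norm (hg : g ∈ normalizer (P e 64 : Set G)) :
    e (c 64) * g * (e (c 64))⁻¹ ∈ normalizer (P e 64 : Set G) :=
  mul_mem (mul_mem (e_norm_P (n64 _)) hg) (inv_mem (e_norm_P (n64 _)))

omit s [Finite G] in
theorem untwist {i j : W} (a : R e (e (c 64) * g * (e (c 64))⁻¹) i j) :
    R e g (c 64 * i * (c 64)⁻¹) (c 64 * j * (c 64)⁻¹) := by
  have := a.conj (c 64)
  have tt : e (c 64) * e (c 64) = 1 := by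
    rw [← map_mul, show c 64 * c 64 = 1 by decide, map_one]
  rwa [show e (c 64) * (e (c 64) * g * (e (c 64))⁻¹) * (e (c 64))⁻¹ =
    e (c 64) * e (c 64) * g * (e (c 64) * e (c 64))⁻¹ by group, tt, one_mul, inv_one,
    mul_one] at this

theorem norm_x2 (hg : g ∈ normalizer (P e 64 : Set G)) :
    R e g (c 32) (c 32) ∨ R e g (c 32) (c 4) :=
  (s.norm_x1 (t_norm hg)).imp (fun h => (untwist h).cast (by decide) (by decide))
    fun h => (untwist h).cast (by decide) (by decide)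

theorem odd_x (hg : g ∈ normalizer (P e 64 : Set G)) (ho : Odd (orderOf g)) :
    R e g (c 4) (c 4) ∧ R e g (c 32) (c 32) := by
  rcases s.norm_x1 hg with a | a <;> rcases s.norm_x2 hg with b | b
  · exact ⟨a, b⟩
  · exact absurd ((s.eq_iff a b).2 rfl) (by decide)
  · exact absurd ((s.eq_iff a b).2 rfl) (by decide)
  · exact ⟨R.of_odd ho 1 (by simpa [pow_two] using a.comp b),
      R.of_odd ho 1 (by simpa [pow_two] using b.comp a)⟩

theorem odd_ab (hg : g ∈ normalizer (P e 64 : Set G)) (ho : Odd (orderOf g)) :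
    R e g (c 1) (c 1) ∧ R e g (c 2) (c 2) := by
  obtain ⟨x1, x2⟩ := s.odd_x hg ho
  obtain ⟨p, hp, a⟩ := norm_R hg (i := c 1) (by decide)
  obtain ⟨r, hr, b⟩ := norm_R hg (i := c 2) (by decide)
  obtain ⟨u, hu, a'⟩ := norm_R hg (i := c 8) (by decide)
  obtain ⟨v, hv, b'⟩ := norm_R hg (i := c 16) (by decide)
  have w1 := s.uniq (((a.mul b).mul (a.mul b)).cast (show _ = c 4 by decide) rfl) x1
  have w2 := s.uniq (((a'.mul b').mul (a'.mul b')).cast (show _ = c 32 by decide) rfl) x2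
  have k := fB u hu (s.sq a' (by decide)) v hv (s.sq b' (by decide)) w2
  have mp := k p hp (s.comm a a' (by decide)) (s.comm a b' (by decide))
  have mr := k r hr (s.comm b a' (by decide)) (s.comm b b' (by decide))
  obtain ⟨f1, f2⟩ := fC p mp (s.sq a (by decide)) r mr (s.sq b (by decide)) w1
  have it := R_iter (e := e) (g := g) (m := 88) (f := lin p r (c 4) 1 1 (c 32)) (fun i hi =>
    ⟨R_lin (by decide) (fun _ => a) (fun _ => b) (fun _ => x1) (fun h => absurd h (by decide))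
      (fun h => absurd h (by decide)) (fun _ => x2) hi,
    lin_mk (fun _ => mp) (fun _ => mr) id (fun _ => mk_one _) (fun _ => mk_one _) id hi⟩) 4
  exact ⟨R.of_odd ho 2 ((it (c 1) (by decide)).cast rfl f1),
    R.of_odd ho 2 ((it (c 2) (by decide)).cast rfl f2)⟩

theorem norm_T0 : normalizer (P e 64 : Set G) ≤ e.range := by
  have hT := T_norm (e := e) n64
  have ch := s.ec.ch _ (s.loc (m := 64) (i := c 4) (by decide) (by decide)) hT
  refine (s.ec.syl.eq_of_le le_top (pg_of_odd fun y hy ho => ?_) hT).le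
  obtain ⟨x1, x2⟩ := s.odd_x hy ho
  obtain ⟨a1, b1⟩ := s.odd_ab hy ho
  obtain ⟨a2, b2⟩ := s.odd_ab (t_norm hy) (by
    rwa [show orderOf (e (c 64) * y * (e (c 64))⁻¹) = orderOf y from
      (MulAut.conj (e (c 64))).orderOf_eq y])
  refine Ch2.eq_one ch hy ho (odd_cent ho (s.pgP 64) ?_ (commutator_le.2 fun q hq n hn => ?_))
  · rintro _ ⟨i, hi, rfl⟩
    exact (R_self.1 (R_fix (m := 64) (by decide) (fun _ => a1) (fun _ => b1) (fun _ => x1)
      (fun _ => (untwist a2).cast (by decide) (by decide))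
      (fun _ => (untwist b2).cast (by decide) (by decide)) (fun _ => x2) hi)).symm
  · have hn' := zpowers_le.2 hy hn
    have hQ := pCoreOf_le_of_sylIn (s.ec.syl.mono hT le_top)
    obtain ⟨i, rfl⟩ := hQ hq
    obtain ⟨j, hj⟩ := hQ (conj_mem_of_le_normalizer (le_normalizer_pCoreOf 2 _) hn' hq)
    have r : R e n i j := hj.symm
    refine ⟨i * j⁻¹, f3d i j ⟨s.mk_of_norm hn' r, s.mk_of_norm (inv_mem hn') r.symm⟩, ?_⟩
    rw [map_mul, map_inv, hj, commutatorElement_def]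
    group

/-- `T₀` is weakly closed in `T`. -/
theorem wc (h : cj g (P e 64) ≤ e.range) : g ∈ e.range := by
  obtain ⟨a1, r1⟩ := exists_R h (e_mem_P (i := c 1) (by decide))
  obtain ⟨b1, r2⟩ := exists_R h (e_mem_P (i := c 2) (by decide))
  obtain ⟨x1, r4⟩ := exists_R h (e_mem_P (i := c 4) (by decide))
  obtain ⟨a2, r8⟩ := exists_R h (e_mem_P (i := c 8) (by decide))
  obtain ⟨b2, r16⟩ := exists_R h (e_mem_P (i := c 16) (by decide))
  obtain ⟨x2, r32⟩ := exists_R h (e_mem_P (i := c 32) (by decide))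
  refine s.norm_T0 (norm_P fun i hi => ⟨_, lin_mk (fun _ => s.mk64 (by decide) r1 r4 r8 r32)
    (fun _ => s.mk64 (by decide) r2 r4 r8 r32) (fun _ => s.mk64 (by decide) r4 r1 r8 r32)
    (fun _ => s.mk64 (by decide) r8 r4 r1 r32) (fun _ => s.mk64 (by decide) r16 r4 r1 r32)
    (fun _ => s.mk64 (by decide) r32 r4 r8 r1) hi, R_lin (by decide) (fun _ => r1) (fun _ => r2)
      (fun _ => r4) (fun _ => r8) (fun _ => r16) (fun _ => r32) hi⟩)

theorem exists_cj_le {H X : Subgroup G} (h0 : P e 64 ≤ H) (hX : X ≤ H) (hp : IsPGroup 2 X) :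
    ∃ h ∈ H, cj h X ≤ e.range := by
  obtain ⟨S, hS, h1⟩ := exists_sylIn_ge h0 (s.pgP 64)
  obtain ⟨h, hh, h2⟩ := hS.exists_conj_le hX hp
  obtain ⟨g, -, h3⟩ := s.ec.syl.exists_conj_le le_top hS.isPGroup
  have hg := s.wc ((cj_mono h1).trans h3)
  refine ⟨h, hh, h2.trans fun u hu => ?_⟩
  have := mul_mem (mul_mem (inv_mem hg) (h3 (conj_mem_map_conj hu))) hg
  simpa [mul_assoc] using this

theorem fr {H : Subgroup G} (h0 : P e 64 ≤ H) (h1 : cj g (P e 64) ≤ H) :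
    ∃ h ∈ H, ∃ j, e j = h * g := by
  obtain ⟨h, hh, h2⟩ := s.exists_cj_le h0 h1 ((s.pgP 64).map _)
  rw [cj_cj] at h2
  exact ⟨h, hh, s.wc h2⟩

omit s [Finite G] in
theorem T0_le_c {i : W} (h : ∀ j, Mk 64 j → j * i * j⁻¹ = i) : P e 64 ≤ centralizer {e i} := by
  rintro _ ⟨j, hj, rfl⟩
  exact (R.of_e' j (h j hj)).mem_c

omit s [Finite G] in
theorem cj_le_c {X : Subgroup G} (h : X ≤ centralizer {e i}) (a : R e g i j) :
    cj g X ≤ centralizer {e j} :=
  map_conj_le_iff.2 fun u hu => by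
    have := ((a.symm.comp (R_of_mem_c (h hu))).comp a).mem_c
    rwa [← mul_assoc] at this

/-- `x₁` is not conjugate to `z`. -/
theorem not_xz (a : R e g (c 4) (c 36)) : False := by
  obtain ⟨h, hh, j, hj⟩ := s.fr (T0_le_c fun j _ => f6g j)
    (cj_le_c (T0_le_c fun j => (f3a j).2) a)
  exact f3b j (s.of_e (hj ▸ a.comp (R_of_mem_c hh)))

/-- `C(x₁) ∩ C(x₂) = T₀`. -/
theorem c0 (a : R e g (c 4) (c 4)) (b : R e g (c 32) (c 32)) : ∃ j, Mk 64 j ∧ e j = g := by
  have hT := T_norm (e := e) n91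
  have ch := s.ec.ch _ (s.loc (m := 91) (i := c 4) (by decide) (by decide)) hT
  have cn := centralizer_le_normalizer' (P e 91)
  have nc : normalizer (P e 91 : Set G) ≤ _ := le_normalizer_centralizer le_rfl
  have ch0 := ch2_normal ch cn nc
  have hS := (s.ec.syl.mono hT le_top).inf_of_normal cn nc
  have h1 : e.range ⊓ centralizer (P e 91 : Set G) ≤ P e 64 := by
    rintro _ ⟨⟨j, rfl⟩, hj⟩
    exact e_mem_P ((f3a j).1 (s.of_e (R_self.2 (hj _ (e_mem_P (i := c 4) (by decide))).symm)))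
  have h2 : P e 64 ≤ centralizer (P e 91 : Set G) := by
    rintro _ ⟨j, hj, rfl⟩ _ ⟨i, hi, rfl⟩
    rw [← map_mul, ← map_mul, fD i hi j hj]
  have hQ := (pCoreOf_le_of_sylIn hS).trans h1
  have h3 : P e 64 ≤ pCoreOf 2 (centralizer (P e 91 : Set G)) := fun u hu =>
    mem_O_of_stab ch0 (s.pgP 91) cn (h2 hu) (h2 hu) fun q hq => by
      obtain ⟨i, hi, rfl⟩ := hQ hq
      obtain ⟨j, hj, rfl⟩ := hu
      exact ⟨_, f3c i hi j hj, by simp [commutatorElement_def]⟩
  have hg : g ∈ centralizer (P e 91 : Set G) := by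
    rintro _ ⟨i, hi, rfl⟩
    exact (R_self.1 (R_fix (m := 91) (by decide) (fun h => absurd h (by decide))
      (fun h => absurd h (by decide)) (fun _ => a) (fun h => absurd h (by decide))
      (fun h => absurd h (by decide)) (fun _ => b) hi)).symm
  exact h1 ⟨s.norm_T0 (le_antisymm hQ h3 ▸ le_normalizer_pCoreOf 2 _ hg), hg⟩

theorem odd_one (ho : Odd (orderOf g)) (a : R e g (c 4) (c 4)) (b : R e g (c 32) (c 32)) :
    g = 1 := by
  obtain ⟨j, -, hj⟩ := s.c0 a b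
  exact s.eq_one ⟨j, hj⟩ ho

end St

end Cfsg.Agent.H20.QE
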