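import Cfsg.Agent.H20.QE2

/-!
Groups of even characteristic with Sylow 2-subgroup `D₈ ≀ 2` in `S₄ ≀ 2`: transfer yields an
element of order 3 that permutes the involutions of `V₁ = ⟨x₁, b₁⟩`.
-/

set_option autoImplicit false

namespace Cfsg.Agent.H20.QE

open Cfsg Cfsg.Agent.H98 Cfsg.Agent.H84 Cfsg.Agent.H71.NG Cfsg.Agent.H72.NG Cfsg.Agent.H71.QA
  Subgroup

variable {G : Type*} [Group G] {e : W →* G} {g h k y : G} {i j : W}

theorem lin_mk' {m m' : ℕ} [Fact (Ok m')] {p0 p1 p2 p3 p4 p5 : W} (h0 : Mk m (c 1) → Mk m' p0)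
    (h2 : Mk m (c 2) → Mk m' p1) (h4 : Mk m (c 4) → Mk m' p2) (h8 : Mk m (c 8) → Mk m' p3)
    (h16 : Mk m (c 16) → Mk m' p4) (h32 : Mk m (c 32) → Mk m' p5) {i : W} (h : Mk m i) :
    Mk m' (lin p0 p1 p2 p3 p4 p5 i) :=
  lin_ind (Q := fun _ q => q ∈ sub m') (q0 := 1) (q1 := 1) (q2 := 1) (q3 := 1) (q4 := 1) (q5 := 1)
    (one_mem _) (fun a b => mul_mem a b) h0 h2 h4 h8 h16 h32 h

/-- `k` has order 3, acts on `W₁ = ⟨x₁, a₁⟩` and centralizes `D₂` and `k^t`. -/
structure Kd (e : W →* G) (k : G) : Prop where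
  k3 : k ^ 3 = 1
  r4 : R e k (c 4) (c 1)
  r1 : R e k (c 1) (c 5)
  r8 : R e k (c 8) (c 8)
  r16 : R e k (c 16) (c 16)
  r32 : R e k (c 32) (c 32)
  kk : k * (e (c 64) * k * (e (c 64))⁻¹) = e (c 64) * k * (e (c 64))⁻¹ * k

/-- The conjugate by `t`. -/
def tw (e : W →* G) (g : G) : G := e (c 64) * g * (e (c 64))⁻¹

theorem R.tw (a : R e g i j) {i' j' : W} (hi : c 64 * i * (c 64)⁻¹ = i' := by decide)
    (hj : c 64 * j * (c 64)⁻¹ = j' := by decide) : R e (tw e g) i' j' := (a.conj _).cast hi hj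

theorem Kd.k1 (d : Kd e k) (hi : Mk 66 i) : R e k i (fk1 i) :=
  R_lin (by decide) (fun _ => d.r1) (fun h => absurd h (by decide)) (fun _ => d.r4) (fun _ => d.r8)
    (fun _ => d.r16) (fun _ => d.r32) hi

theorem Kd.k2 (d : Kd e k) (hi : Mk 80 i) : R e (tw e k) i (fk2 i) :=
  R_lin (by decide) (fun _ => d.r8.tw) (fun _ => d.r16.tw) (fun _ => d.r32.tw) (fun _ => d.r1.tw)
    (fun h => absurd h (by decide)) (fun _ => d.r4.tw) hi

theorem Kd.k2' (d : Kd e k) (i j : W) (hi : Mk 80 i := by decide) (hj : fk2 i = j := by decide) :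
    R e (tw e k) i j := (d.k2 hi).cast rfl hj

namespace St

variable [Finite G] (s : St e)
include s

theorem transfer (hO : pResidual 2 G = ⊤) (f : W → ℕ)
    (hf : ∀ i j, f (i * j) % 2 = (f i + f j) % 2) {p : W} (hp : p * p = 1) :
    ∃ g q, R e g p q ∧ f q % 2 = 0 ∧ ∀ i, i * p = p * i → ∃ j, R e g i j := by
  obtain ⟨S, hS⟩ := s.ec.syl.exists_sylow_top
  let ψ : W →* Multiplicative (ZMod 2) := MonoidHom.mk' (fun i => .ofAdd (f i : ZMod 2))
    fun i j => by
      rw [← ofAdd_add, ← Nat.cast_add, (ZMod.natCast_eq_natCast_iff' _ _ 2).2 (hf i j)]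
  let φ : (S : Subgroup G) →* Multiplicative (ZMod 2) := ψ.comp
    ((MonoidHom.ofInjective s.inj).symm.toMonoidHom.comp (MulEquiv.subgroupCongr hS).toMonoidHom)
  obtain ⟨g, hg, h1, -, h2⟩ := H82.exists_extremal_conj S φ (τ := .ofAdd 1) (by decide) (by decide)
    (by decide) (y := e p) (by rw [← map_mul, hp, map_one])
    (H8.pResidual_le_ker (IsPGroup.of_card (n := 1) (by simp)) _ (hO ▸ mem_top _))
  obtain ⟨q, hq⟩ : g * e p * g⁻¹ ∈ e.range := hS ▸ hg
  refine ⟨g, q, hq.symm, ?_, fun i hi => exists_R ((h2.trans inf_le_left).trans hS.le)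
    ⟨hS.ge ⟨i, rfl⟩, mem_c1.2 (by rw [← map_mul, hi, map_mul])⟩⟩
  have : (MonoidHom.ofInjective s.inj).symm (MulEquiv.subgroupCongr hS ⟨_, hg⟩) = q := by
    rw [MulEquiv.symm_apply_eq]
    exact Subtype.ext hq.symm
  have h3 : ψ q = 1 := this ▸ h1
  exact (ZMod.natCast_eq_natCast_iff' _ 0 2).1 h3

theorem s1_norm (H : ∀ i, Mk 65 i → ∃ j, R e g i j) (x2 : R e g (c 32) (c 32)) :
    g ∈ normalizer (P e 65 : Set G) := by
  obtain ⟨r, b⟩ := H (c 2) (by decide)
  obtain ⟨p, a⟩ := H (c 4) (by decide)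
  obtain ⟨u, a'⟩ := H (c 8) (by decide)
  obtain ⟨v, b'⟩ := H (c 16) (by decide)
  have hr := s.mk64 (by decide) b a a' x2
  have hp := s.mk64 (by decide) a b a' x2
  have hu := s.mk64 (by decide) a' b a x2
  have hv := s.mk64 (by decide) b' b a x2
  have w := s.uniq (((a'.mul b').mul (a'.mul b')).cast (show _ = c 32 by decide) rfl) x2
  have k := fB u hu (s.sq a' (by decide)) v hv (s.sq b' (by decide)) w
  have key : ∀ (m : ℕ) [Fact (Ok m)], Mk m (c 32) →
      (∀ u, Mk 64 u → u * p = p * u → u * r = r * u → Mk m u) → cj g (P e 65) ≤ P e m :=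
    fun m _ h32 h => cj_P_le fun i hi => ⟨_, lin_mk' (fun _ => mk_one _)
      (fun _ => h r hr (s.comm b a (by decide)) rfl) (fun _ => h p hp rfl (s.comm a b (by decide)))
      (fun _ => h u hu (s.comm a' a (by decide)) (s.comm a' b (by decide)))
      (fun _ => h v hv (s.comm b' a (by decide)) (s.comm b' b (by decide))) (fun _ => h32) hi,
      R_lin (by decide) (fun h => absurd h (by decide)) (fun _ => b) (fun _ => a) (fun _ => a')
        (fun _ => b') (fun _ => x2) hi⟩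
  rcases f4b p (k p hp (s.comm a a' (by decide)) (s.comm a b' (by decide))) (s.sq a (by decide))
    (s.ne a R.one (by decide)) (s.ne a x2 (by decide)) r
    (k r hr (s.comm b a' (by decide)) (s.comm b b' (by decide))) (s.sq b (by decide))
    (s.comm a b (by decide)) (s.ne b R.one (by decide)) (s.ne b x2 (by decide))
    (s.ne b a (by decide)) (s.ne b (a.mul x2) (by decide)) with h | h
  · exact mem_norm_of_cj_le (key 65 (by decide) h)
  · have h1 := key 66 (by decide) h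
    have h2 : cj g (P e 65) = P e 66 := eq_of_le_of_card_ge h1 (by
      rw [card_map_conj, s.card_P, s.card_P, card_65, card_66])
    obtain ⟨n, hn, j, hj⟩ := s.fr (T0_norm n66) (h2 ▸ cj_le_norm (T0_norm n65) g)
    obtain ⟨r', hr', c1⟩ := norm_R hn (h r hr (s.comm b a (by decide)) rfl)
    obtain ⟨v', hv', c2⟩ := norm_R hn (h v hv (s.comm b' a (by decide)) (s.comm b' b (by decide)))
    exact absurd (s.of_e (hj ▸ b'.comp c2) ▸ hv') (f4c j (s.of_e (hj ▸ b.comp c1) ▸ hr'))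

theorem exists_g (hO : pResidual 2 G = ⊤) :
    ∃ g ∈ normalizer (P e 65 : Set G), g ∉ e.range := by
  obtain ⟨g, r, b, hr, H⟩ := s.transfer hO ph ph_mul (p := c 2) (by decide)
  have H' : ∀ i, Mk 65 i → ∃ j, R e g i j := fun i hi => H i ((f4z i).2 hi)
  obtain ⟨p, a⟩ := H' (c 4) (by decide)
  obtain ⟨u, a'⟩ := H' (c 8) (by decide)
  obtain ⟨v, b'⟩ := H' (c 16) (by decide)
  have w : R e g (c 32) _ := ((a'.mul b').mul (a'.mul b')).cast (by decide) rfl
  have nm : ∀ {g r}, R e g (c 2) r → ph r % 2 = 0 → g ∉ e.range := by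
    rintro _ r b hr ⟨j, rfl⟩
    exact f4d j (s.of_e b ▸ hr)
  rcases fA u (s.mk64 (by decide) a' b a w) (s.sq a' (by decide)) v (s.mk64 (by decide) b' b a w)
    (s.sq b' (by decide)) (s.ne w R.one (by decide)) with h | h | h
  · refine ⟨e (c 64) * g, s.s1_norm (fun i hi => ?_) ((h ▸ w).comp (R.of_e' _ (by decide))),
      nm (b.comp (R.of_e _ _)) (f4d' r hr)⟩
    obtain ⟨j, hj⟩ := H' i hi
    exact ⟨_, hj.comp (R.of_e _ _)⟩
  · exact ⟨g, s.s1_norm H' (h ▸ w), nm b hr⟩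
  · exact (f4a p (h p (s.mk64 (by decide) a b a' w) (s.comm a a' (by decide))
      (s.comm a b' (by decide))) (s.ne a R.one (by decide)) r (h r (s.mk64 (by decide) b a a' w)
      (s.comm b a' (by decide)) (s.comm b b' (by decide))) (s.ne b R.one (by decide))
      (s.ne b a (by decide)) _ (h _ (s.mk64 (by decide) w a b a') (s.comm w a' (by decide))
      (s.comm w b' (by decide))) (s.ne w R.one (by decide)) (s.ne w a (by decide))
      (s.ne w b (by decide)) (s.ne w (a.mul b) (by decide))).elim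

theorem exists_odd (hO : pResidual 2 G = ⊤) :
    ∃ y ∈ normalizer (P e 65 : Set G), Odd (orderOf y) ∧ y ≠ 1 := by
  by_contra hn
  push Not at hn
  obtain ⟨g, hg, h1⟩ := s.exists_g hO
  obtain ⟨h, hh, h2⟩ := s.exists_cj_le (T0_norm n65) le_rfl (pg_of_odd hn)
  rw [cj_eq_of_mem_normalizer (le_normalizer hh)] at h2
  exact h1 (h2 hg)

omit [Finite G] in
theorem n1 (hy : y ∈ normalizer (P e 65 : Set G)) : R e y (c 32) (c 32) ∧
    ∃ p r, Mk 89 p ∧ Mk 89 r ∧ R e y (c 4) p ∧ R e y (c 2) r := by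
  obtain ⟨r, hr, b⟩ := norm_R hy (i := c 2) (by decide)
  obtain ⟨p, hp, a⟩ := norm_R hy (i := c 4) (by decide)
  obtain ⟨u, hu, a'⟩ := norm_R hy (i := c 8) (by decide)
  obtain ⟨v, hv, b'⟩ := norm_R hy (i := c 16) (by decide)
  have w : R e y (c 32) _ := ((a'.mul b').mul (a'.mul b')).cast (by decide) rfl
  have w' := f4e _ (mul_mem (S := Subgroup W) (s := sub 65) hu hv) (s.ne w R.one (by decide))
  have k := fB u (f4e' u hu).1 (s.sq a' (by decide)) v (f4e' v hv).1 (s.sq b' (by decide)) w'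
  exact ⟨w' ▸ w, p, r,
    (f4e' p hp).2 (k p (f4e' p hp).1 (s.comm a a' (by decide)) (s.comm a b' (by decide))),
    (f4e' r hr).2 (k r (f4e' r hr).1 (s.comm b a' (by decide)) (s.comm b b' (by decide))), a, b⟩

theorem exists_y0 (hO : pResidual 2 G = ⊤) : ∃ y ∈ normalizer (P e 65 : Set G), Odd (orderOf y) ∧
    ∃ p, (p = c 2 ∨ p = c 34) ∧ R e y (c 4) p ∧ R e y (c 2) (c 6) := by
  obtain ⟨y, hy, ho, h1⟩ := s.exists_odd hO
  obtain ⟨x2, p, r, hp, hr, a, b⟩ := s.n1 hy
  have op : ∀ n, Odd (orderOf (y ^ n)) := fun n => ho.of_dvd_nat (orderOf_pow_dvd n)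
  have it := R_iter (e := e) (g := y) (m := 89) (f := lin 1 r p 1 1 (c 32)) fun i hi =>
    ⟨R_lin (by decide) (fun h => absurd h (by decide)) (fun _ => b) (fun _ => a)
      (fun h => absurd h (by decide)) (fun h => absurd h (by decide)) (fun _ => x2) hi,
    lin_mk (fun _ => mk_one _) (fun _ => hr) (fun _ => hp) (fun _ => mk_one _) (fun _ => mk_one _)
      id hi⟩
  rcases f4f p hp r hr
    (fun h => h1 (s.odd_one ho (R.of_odd ho 2 ((it 4 (c 4) (by decide)).cast rfl h)) x2))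
    (s.ne b R.one (by decide)) (s.ne b x2 (by decide))
    (s.ne b a (by decide)) (s.ne b (a.mul x2) (by decide)) (s.ne a R.one (by decide))
    (s.ne a x2 (by decide)) (fun h => s.not_xz (((it 2 (c 4) (by decide)).cast rfl h).comp
      ((it 1 (c 36) (by decide)).comp (R.of_e (c 1) _)).symm)) with h | h
  · exact ⟨y, hy, ho, p, h.1, a, h.2 ▸ b⟩
  · exact ⟨y ^ 2, pow_mem hy 2, op 2, _, h.1, it 2 (c 4) (by decide),
      (it 2 (c 2) (by decide)).cast rfl h.2⟩

theorem exists_y1 (hO : pResidual 2 G = ⊤) : ∃ y : G, y ^ 3 = 1 ∧ R e y (c 32) (c 32) ∧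
    R e y (c 2) (c 6) ∧ ∃ p, (p = c 2 ∨ p = c 34) ∧ R e y (c 4) p ∧
      (R e y (c 8) (c 8) ∨ R e y (c 12) (c 12)) ∧ (R e y (c 16) (c 16) ∨ R e y (c 20) (c 20)) := by
  obtain ⟨y, hy, ho, p, hp, a, b⟩ := s.exists_y0 hO
  have x2 := (s.n1 hy).1
  obtain ⟨u, hu, a'⟩ := norm_R hy (i := c 8) (by decide)
  obtain ⟨v, hv, b'⟩ := norm_R hy (i := c 16) (by decide)
  have mp : Mk 65 p := by rcases hp with rfl | rfl <;> decide
  have F : ∀ i, Mk 65 i → R e y i (act p u v i) ∧ Mk 65 (act p u v i) := fun i hi =>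
    ⟨R_lin (by decide) (fun h => absurd h (by decide)) (fun _ => b) (fun _ => a) (fun _ => a')
      (fun _ => b') (fun _ => x2) hi,
    lin_mk (fun _ => mk_one _) (fun _ => by decide) (fun _ => mp) (fun _ => hu) (fun _ => hv) id hi⟩
  have c1 : ∀ i, Mk 65 i → Mk 65 (c 1 * i * (c 1)⁻¹) := n65 _ (by decide)
  -- the images of `p` and of `p x₁`
  have a2 : R e y p (p * c 4) ∧ R e y (p * c 4) (c 4) := by
    rcases hp with rfl | rfl
    · exact ⟨b.cast rfl (by decide), (b.mul a).cast rfl (by decide)⟩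
    · exact ⟨(b.mul x2).cast (by decide) (by decide),
        ((b.mul a).mul x2).cast (by decide) (by decide)⟩
  have y3 : y ^ 3 = 1 := s.odd_one (ho.of_dvd_nat (orderOf_pow_dvd 3))
    (by simpa [pow_succ, mul_assoc] using (a.comp a2.1).comp a2.2)
    (by simpa [pow_succ, mul_assoc] using (x2.comp x2).comp x2)
  have f3 : ∀ i, Mk 65 i → (act p u v)^[3] i = i := fun i hi =>
    s.uniq (R_iter F 3 i hi) (by rw [y3]; exact R.refl i)
  obtain ⟨l, hl, el⟩ := s.c0 (g := y * (e (c 1) * (y * e (c 1))))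
    ((((R.of_e' (c 1) (by decide)).comp a).comp
      (R.of_e' (c 1) (by rcases hp with rfl | rfl <;> decide))).comp a2.2)
    ((((R.of_e' (c 1) (by decide)).comp x2).comp (R.of_e' (c 1) (by decide))).comp x2)
  have nn : ∀ {i j}, c 1 * i * (c 1)⁻¹ = i → R e y i j → Mk 65 j →
      act p u v (c 1 * j * (c 1)⁻¹) = l * i * l⁻¹ := fun h1 h2 h3 => by
    have := (((R.of_e' (c 1) h1).comp h2).comp (R.of_e (c 1) _)).comp (F _ (c1 _ h3)).1
    rw [← el] at this
    exact (s.of_e this).symm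
  obtain ⟨h1, h2⟩ := f4g p hp u hu v hv
    (s.uniq (((a'.mul b').mul (a'.mul b')).cast (show _ = c 32 by decide) rfl) x2)
    (f3 (c 8) (by decide)) (f3 (c 16) (by decide))
    (by rw [nn (by decide) a' hu]; exact (f4h l hl).1)
    (by rw [nn (by decide) b' hv]; exact (f4h l hl).2)
  exact ⟨y, y3, x2, b, p, hp, a,
    h1.imp (fun h => a'.cast rfl h) fun h => (a.mul a').cast (by decide) h,
    h2.imp (fun h => b'.cast rfl h) fun h => (a.mul b').cast (by decide) h⟩

theorem exists_y (hO : pResidual 2 G = ⊤) (d : Kd e k) : ∃ y : G, y ^ 3 = 1 ∧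
    R e y (c 32) (c 32) ∧ R e y (c 2) (c 6) ∧ R e y (c 4) (c 2) ∧ R e y (c 8) (c 8) ∧
      (R e y (c 16) (c 16) ∨ R e y (c 20) (c 20)) := by
  obtain ⟨y, y3, x2, b, p, rfl | rfl, a, h1 | h1, h2⟩ := s.exists_y1 hO
  · exact ⟨y, y3, x2, b, a, h1, h2⟩
  · have a8 : R e y (c 8) (c 14) := (a.mul h1).cast (by decide) (by decide)
    have z : R e y (c 36) (c 34) := (a.mul x2).cast (by decide) (by decide)
    exact (s.not_xz ((((((R.of_e' (c 64) (by decide)).comp (d.k2' (c 32) (c 8))).comp a8).comp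
      (d.k2' (c 38) (c 14)).symm).comp (R.of_e' (c 1) (by decide))).comp z.symm)).elim
  · have a12 : R e y (c 12) (c 42) := (a.mul h1).cast (by decide) (by decide)
    exact (s.not_xz ((((a.comp (d.k2' (c 34) (c 10))).comp (d.k2' (c 10) (c 42))).comp
      a12.symm).comp (d.k2' (c 36) (c 12)).symm)).elim
  · have a8 : R e y (c 8) (c 46) := (a.mul h1).cast (by decide) (by decide)
    have ny : y ∈ normalizer (P e 81 : Set G) := norm_P fun i hi =>
      ⟨_, lin_mk (fun _ => mk_one _) (fun _ => by decide) (fun _ => by decide) (fun _ => by decide)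
        (fun _ => mk_one _) id hi, R_lin (by decide) (fun h => absurd h (by decide)) (fun _ => b)
        (fun _ => a) (fun _ => a8) (fun h => absurd h (by decide)) (fun _ => x2) hi⟩
    have nk : tw e k ∈ normalizer (P e 81 : Set G) := norm_P fun i hi =>
      ⟨_, (by decide +kernel : ∀ i, Mk 81 i → Mk 81 (fk2 i)) i hi, d.k2 (f5a i hi).1⟩
    have na : e (c 1) ∈ normalizer (P e 81 : Set G) := e_norm_P (n81 _ (by decide))
    have r := ((((a.comp (d.k2' (c 34) (c 10))).comp (d.k2' (c 10) (c 42))).comp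
      (R.of_e' (c 1) (show _ = c 46 by decide))).comp a8.symm).comp (d.k2' (c 32) (c 8)).symm
    have ng := mul_mem (inv_mem nk) (mul_mem (inv_mem ny) (mul_mem na (mul_mem nk (mul_mem nk ny))))
    generalize (tw e k)⁻¹ * (y⁻¹ * (e (c 1) * (tw e k * (tw e k * y)))) = g at r ng
    obtain ⟨h, hh, j, hj⟩ := s.fr (g := g)
      (H := normalizer (P e 81 : Set G) ⊓ centralizer {e (c 32)})
      (le_inf (T0_norm n81) (T0_le_c fun j => (f3a' j).2))
      (le_inf (by
        have := cj_le_norm (T0_norm (e := e) n81) g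
        rwa [cj_eq_of_mem_normalizer ng] at this) (cj_le_c (T0_le_c fun j => (f3a j).2) r))
    exact absurd (s.mk_of_norm (hj ▸ mul_mem hh.1 ng) (R.of_e j (c 2)) (by decide))
      (f4i j (s.of_e (hj ▸ r.comp (R_of_mem_c hh.2))))

end St

end Cfsg.Agent.H20.QE
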