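import Cfsg.Agent.H20.QE1

/-! Finite checks in the model of `D₈ ≀ 2`. -/

set_option autoImplicit false
set_option synthInstance.maxSize 4096

namespace Cfsg.Agent.H20.QE

/-- An elementary abelian group of order 16 with basis `p, q, r, s`. -/
def E16 (p q r s : W) : Prop := p * p = 1 ∧ q * q = 1 ∧ r * r = 1 ∧ s * s = 1 ∧ p * q = q * p ∧
  p * r = r * p ∧ p * s = s * p ∧ q * r = r * q ∧ q * s = s * q ∧ r * s = s * r ∧ q ≠ 1 ∧ q ≠ p ∧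
  r ≠ 1 ∧ r ≠ p ∧ r ≠ q ∧ r ≠ p * q ∧ s ≠ 1 ∧ s ≠ p ∧ s ≠ q ∧ s ≠ r ∧ s ≠ p * q ∧ s ≠ p * r ∧
  s ≠ q * r ∧ s ≠ p * q * r

instance (p q r s : W) : Decidable (E16 p q r s) := by
  unfold E16
  infer_instance

theorem e16 : ∀ p, ¬ Mk 64 p → p * p = 1 → ∀ q, p * q = q * p → q * q = 1 → q ≠ 1 → q ≠ p →
    ∀ r, p * r = r * p → q * r = r * q → r * r = 1 → r ≠ 1 → r ≠ p → r ≠ q → r ≠ p * q →
    ∀ s, p * s = s * p → q * s = s * q → r * s = s * r → s * s = 1 →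
      s = 1 ∨ s = p ∨ s = q ∨ s = r ∨ s = p * q ∨ s = p * r ∨ s = q * r ∨ s = p * q * r := by
  decide +kernel

theorem fA : ∀ p, Mk 64 p → p * p = 1 → ∀ r, Mk 64 r → r * r = 1 → p * r * (p * r) ≠ 1 →
    p * r * (p * r) = c 4 ∨ p * r * (p * r) = c 32 ∨ ∀ u, Mk 64 u → u * p = p * u → u * r = r * u →
      Mk 91 u := by
  decide +kernel

theorem fB : ∀ p, Mk 64 p → p * p = 1 → ∀ r, Mk 64 r → r * r = 1 → p * r * (p * r) = c 32 →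
    ∀ u, Mk 64 u → u * p = p * u → u * r = r * u → Mk 88 u := by
  decide +kernel

theorem fC : ∀ p, Mk 88 p → p * p = 1 → ∀ r, Mk 88 r → r * r = 1 → p * r * (p * r) = c 4 →
    (lin p r (c 4) 1 1 (c 32))^[4] (c 1) = c 1 ∧ (lin p r (c 4) 1 1 (c 32))^[4] (c 2) = c 2 := by
  decide +kernel

theorem fD : ∀ u, Mk 91 u → ∀ v, Mk 64 v → u * v = v * u := by decide +kernel

theorem n64 : ∀ l i, Mk 64 i → Mk 64 (l * i * l⁻¹) := by decide +kernel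

theorem n91 : ∀ l i, Mk 91 i → Mk 91 (l * i * l⁻¹) := by decide +kernel

theorem n65 : ∀ l, Mk 64 l → ∀ i, Mk 65 i → Mk 65 (l * i * l⁻¹) := by decide +kernel

theorem n66 : ∀ l, Mk 64 l → ∀ i, Mk 66 i → Mk 66 (l * i * l⁻¹) := by decide +kernel

theorem n81 : ∀ l, Mk 64 l → ∀ i, Mk 81 i → Mk 81 (l * i * l⁻¹) := by decide +kernel

theorem f3a : ∀ j, j * c 4 * j⁻¹ = c 4 ↔ Mk 64 j := by decide +kernel

theorem f3a' : ∀ j, j * c 32 * j⁻¹ = c 32 ↔ Mk 64 j := by decide +kernel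

theorem f3b : ∀ j, j * c 4 * j⁻¹ ≠ c 36 := by decide +kernel

theorem f3c : ∀ i, Mk 64 i → ∀ j, Mk 64 j → Mk 91 (i * j * i⁻¹ * j⁻¹) := by decide +kernel

theorem f3d : ∀ i j, (Mk 64 i ↔ Mk 64 j) → Mk 64 (i * j⁻¹) := by decide +kernel

theorem f3e : ∀ j, Mk 64 j → j * c 2 * j⁻¹ = c 2 → j * c 8 * j⁻¹ = c 8 → Mk 81 j := by
  decide +kernel

/-- The parity of this number is a homomorphism that is trivial on `a₁, a₂`. -/
def ph (i : W) : ℕ := i.v / 2 + i.v / 16 + i.v / 64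

theorem ph_mul : ∀ i j, ph (i * j) % 2 = (ph i + ph j) % 2 := by decide +kernel

theorem ps_mul : ∀ i j : W, (i * j).v / 64 % 2 = (i.v / 64 + j.v / 64) % 2 := by decide +kernel

theorem f4z : ∀ i, i * c 2 = c 2 * i ↔ Mk 65 i := by decide +kernel

theorem f4a : ∀ p, Mk 91 p → p ≠ 1 → ∀ r, Mk 91 r → r ≠ 1 → r ≠ p → ∀ w, Mk 91 w → w ≠ 1 → w ≠ p →
    w ≠ r → w ≠ p * r → False := by
  decide +kernel

theorem f4b : ∀ p, Mk 88 p → p * p = 1 → p ≠ 1 → p ≠ c 32 → ∀ r, Mk 88 r → r * r = 1 →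
    p * r = r * p → r ≠ 1 → r ≠ c 32 → r ≠ p → r ≠ p * c 32 →
      (∀ s, Mk 64 s → s * p = p * s → s * r = r * s → Mk 65 s) ∨
        ∀ s, Mk 64 s → s * p = p * s → s * r = r * s → Mk 66 s := by
  decide +kernel

theorem f4c : ∀ j, Mk 66 (j * c 2 * j⁻¹) → ¬ Mk 66 (j * c 16 * j⁻¹) := by decide +kernel

theorem f4d : ∀ j, ph (j * c 2 * j⁻¹) % 2 ≠ 0 := by decide +kernel

theorem f4d' : ∀ q, ph q % 2 = 0 → ph (c 64 * q * (c 64)⁻¹) % 2 = 0 := by decide +kernel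

theorem f4e : ∀ i, Mk 65 i → i * i ≠ 1 → i * i = c 32 := by decide +kernel

theorem f4e' : ∀ i, Mk 65 i → Mk 64 i ∧ (Mk 88 i → Mk 89 i) := by decide +kernel

theorem f4f : ∀ p, Mk 89 p → ∀ r, Mk 89 r → (lin 1 r p 1 1 (c 32))^[4] (c 4) ≠ c 4 →
    r ≠ 1 → r ≠ c 32 → r ≠ p → r ≠ p * c 32 → p ≠ 1 → p ≠ c 32 →
    (lin 1 r p 1 1 (c 32))^[2] (c 4) ≠ c 1 * lin 1 r p 1 1 (c 32) (c 36) * (c 1)⁻¹ →
      ((p = c 2 ∨ p = c 34) ∧ r = c 6) ∨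
        (((lin 1 r p 1 1 (c 32))^[2] (c 4) = c 2 ∨ (lin 1 r p 1 1 (c 32))^[2] (c 4) = c 34) ∧
          (lin 1 r p 1 1 (c 32))^[2] (c 2) = c 6) := by
  decide +kernel

/-- The two possible actions on `S₁ = V₁ D₂`. -/
def act (p s u : W) : W → W := lin 1 (c 6) p s u (c 32)

theorem f4g : ∀ p, p = c 2 ∨ p = c 34 → ∀ s, Mk 65 s → ∀ u, Mk 65 u → s * u * (s * u) = c 32 →
    (act p s u)^[3] (c 8) = c 8 → (act p s u)^[3] (c 16) = c 16 →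
    (act p s u (c 1 * s * (c 1)⁻¹) = c 8 ∨ act p s u (c 1 * s * (c 1)⁻¹) = c 40) →
    (act p s u (c 1 * u * (c 1)⁻¹) = c 16 ∨ act p s u (c 1 * u * (c 1)⁻¹) = c 48) →
      (s = c 8 ∨ p * s = c 12) ∧ (u = c 16 ∨ p * u = c 20) := by
  decide +kernel

theorem f4h : ∀ l, Mk 64 l → (l * c 8 * l⁻¹ = c 8 ∨ l * c 8 * l⁻¹ = c 40) ∧
    (l * c 16 * l⁻¹ = c 16 ∨ l * c 16 * l⁻¹ = c 48) := by
  decide +kernel

theorem f4i : ∀ j, j * c 4 * j⁻¹ = c 32 → ¬ Mk 81 (j * c 2 * j⁻¹) := by decide +kernel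

/-- The action of `k₂` on `D₁ W₂`. -/
def fk2 : W → W := lin (c 1) (c 2) (c 4) (c 40) 1 (c 8)

/-- The action of `k₁` on `W₁ D₂`. -/
def fk1 : W → W := lin (c 5) 1 (c 1) (c 8) (c 16) (c 32)

/-- The action of `y` on `V₁ W₂` (or on `V₁ D₂`). -/
def fy : W → W := lin 1 (c 6) (c 2) (c 8) (c 16) (c 32)

theorem f5a : ∀ j, Mk 81 j → Mk 80 j ∧ Mk 80 (fk2 j) ∧ Mk 81 j⁻¹ ∧ Mk 81 (fy j⁻¹) ∧
    (j * fk2 j * fk2 (fk2 j) = 1 → j⁻¹ * fy j⁻¹ * fy (fy j⁻¹) = 1 → j = 1) := by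
  decide +kernel

theorem f5b : ∀ j, Mk 64 j → j * c 8 * j⁻¹ = c 8 → Mk 80 j ∧ (j = fk2 j → Mk 120 j) := by
  decide +kernel

/-- The conjugate of an involution `d₁ d₂` (`d₁ ≠ 1`) of the form `x₁ d₂`. -/
def tg (i : W) : W := c (Nat.lor (Nat.land i.v 56) 4)

theorem f5c : ∀ i, Mk 64 i → i * i = 1 → ¬ Mk 7 i →
    (Mk 66 i ∧ Mk 66 (fk1 i) ∧ (i = tg i ∨ fk1 i = tg i ∨ fk1 (fk1 i) = tg i)) ∨
      (Mk 65 i ∧ Mk 65 (fy i) ∧ (i = tg i ∨ fy i = tg i ∨ fy (fy i) = tg i)) := by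
  decide +kernel

/-- An involution of `T₀` with a trivial component. -/
def Xt (i : W) : Prop := Mk 7 i ∨ Mk 56 i

instance (i : W) : Decidable (Xt i) := by
  unfold Xt
  infer_instance

def Inv0 (i : W) : Prop := Mk 64 i ∧ i * i = 1 ∧ ¬ Mk 7 i

instance (i : W) : Decidable (Inv0 i) := by
  unfold Inv0
  infer_instance

theorem f5d : ∀ i, Mk 64 i → i * i = 1 → i ≠ 1 →
    (Xt i → (Inv0 i ∧ tg i = c 4) ∨ (Inv0 (c 64 * i * (c 64)⁻¹) ∧ tg (c 64 * i * (c 64)⁻¹) = c 4)) ∧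
      (¬ Xt i → Inv0 i ∧ Inv0 (c 64 * tg i * (c 64)⁻¹) ∧ tg (c 64 * tg i * (c 64)⁻¹) = c 36) := by
  decide +kernel

theorem f6a : ∀ i, ¬ Mk 64 i → i * i = 1 → ¬ ∀ l, l * i * l⁻¹ ≠ c 64 := by decide +kernel

theorem f6b : ∀ q : W, q.v / 64 % 2 = 0 → Mk 64 q := by decide +kernel

theorem f6c : ∀ u, Mk 64 u → u ≠ 1 → Xt u → ∀ v, u * v = v * u → Mk 64 v := by decide +kernel

theorem f6d : ∀ u, Mk 64 u → u * u = 1 → u ≠ 1 → Xt u → ∀ v, Mk 64 v → v * v = 1 → ¬ Xt v →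
    Xt (u * v) → ∀ w, Mk 64 w → ¬ Xt w → Xt (u * w) → ¬ Xt (v * w) → ¬ Xt (u * (v * w)) := by
  decide +kernel

theorem f6e : ∀ i, i * c 4 * i⁻¹ * (c 4)⁻¹ = 1 ∨ i * c 4 * i⁻¹ * (c 4)⁻¹ = c 36 := by
  decide +kernel

theorem f6f : ∀ j, Mk 64 j → Xt j → Xt (j * c 36) → j ≠ 1 → j ≠ c 36 → j = c 4 ∨ j = c 32 := by
  decide +kernel

theorem f6g : ∀ l, l * c 36 * l⁻¹ = c 36 := by decide +kernel

/-- The embedding of the dihedral group of order 8 onto `D₁`. -/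
def dih : DihedralGroup 4 →* W := MonoidHom.mk'
  (fun g => match g with
    | .r i => c 3 ^ i.val
    | .sr i => c 1 * c 3 ^ i.val) (by decide +kernel)

theorem dih_inj : Function.Injective dih := by
  rw [injective_iff_map_eq_one]
  decide +kernel

theorem dih_mk : ∀ g, Mk 120 (dih g) := by decide +kernel

theorem dih_surj : ∀ i, Mk 120 i → ∃ g, dih g = i := by decide +kernel

end Cfsg.Agent.H20.QE
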