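import Cfsg.Agent.H35.RfQ
import Cfsg.Agent.S0243
import Cfsg.Agent.S0280
import Cfsg.Agent.H74.Mathieu
import Cfsg.Agent.H28.PSL2Small

/-! Project RF: no simple group of 2-rank two has order `128 m` dividing `2⁷ 3⁷ 5 7 11`. -/

set_option autoImplicit false

namespace Cfsg.Agent.H20.RfSv1

open Cfsg Cfsg.Agent.H35.RF

universe u

theorem l2 {q s : ℕ} (hq : Odd q) (h : Nat.gcd 2 (q - 1) * s = q * (q ^ 2 - 1)) (h1 : 128 ∣ s)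
    (h2 : s ∣ 2 ^ 7 * 3 ^ 7 * 5 * 7 * 11) : False := by
  rw [Nat.gcd_eq_left (by obtain ⟨k, rfl⟩ := hq; omega)] at h
  have a1 : 2 * 128 ∣ q * (q ^ 2 - 1) := h ▸ Nat.mul_dvd_mul_left 2 h1
  have a2 : q * (q ^ 2 - 1) ∣ 2 * (2 ^ 7 * 3 ^ 7 * 5 * 7 * 11) := h ▸ Nat.mul_dvd_mul_left 2 h2
  rcases lt_or_ge q 600 with h6 | h6
  · exact (by decide +kernel : ∀ q < 600, q % 2 = 1 → 2 * 128 ∣ q * (q ^ 2 - 1) →
      ¬ q * (q ^ 2 - 1) ∣ 2 * (2 ^ 7 * 3 ^ 7 * 5 * 7 * 11)) q h6 (Nat.odd_iff.1 hq) a1 a2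
  · have a3 := Nat.le_of_dvd (by norm_num) a2
    have : 600 * (600 ^ 2 - 1) ≤ q * (q ^ 2 - 1) := by gcongr
    omega

theorem l3 {q s d x : ℕ} (hq : Odd q ∨ q = 4) (hx : x = q ^ 3 - 1 ∨ x = q ^ 3 + 1)
    (h : Nat.gcd 3 d * s = q ^ 3 * ((q ^ 2 - 1) * x)) (h1 : 128 ∣ s)
    (h2 : s ∣ 2 ^ 7 * 3 ^ 7 * 5 * 7 * 11) (h4 : q = 4 → x = 65) : False := by
  have a1 : 128 ∣ q ^ 3 * ((q ^ 2 - 1) * x) := h ▸ h1.mul_left _
  have a2 : q ^ 3 * ((q ^ 2 - 1) * x) ∣ 3 * (2 ^ 7 * 3 ^ 7 * 5 * 7 * 11) :=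
    h ▸ Nat.mul_dvd_mul (Nat.gcd_dvd_left _ _) h2
  rcases lt_or_ge q 13 with h6 | h6
  · rcases hq with hq | rfl
    · rw [Nat.odd_iff] at hq
      rcases hx with rfl | rfl <;> revert a1 a2 hq <;> clear h h4 <;> revert q <;> decide +kernel
    · rw [h4 rfl] at a1
      revert a1
      decide
  · have a3 := Nat.le_of_dvd (by norm_num) a2
    have : q ^ 3 - 1 ≤ x := by omega
    have : 13 ^ 3 * ((13 ^ 2 - 1) * (13 ^ 3 - 1)) ≤ q ^ 3 * ((q ^ 2 - 1) * x) := by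
      refine le_trans ?_ (Nat.mul_le_mul_left _ (Nat.mul_le_mul_left _ this))
      gcongr
    omega

theorem card_l3 {F : Type} [Field F] [Fintype F] : Nat.gcd 3 (Fintype.card F - 1) *
    Nat.card (Matrix.ProjectiveSpecialLinearGroup (Fin 3) F) =
      Fintype.card F ^ 3 * ((Fintype.card F ^ 2 - 1) * (Fintype.card F ^ 3 - 1)) := by
  have e : ∀ (q : ℕ) {a b : ℕ}, b ≤ a → q ^ a - q ^ b = q ^ b * (q ^ (a - b) - 1) :=
    fun q a b h => by rw [Nat.mul_sub, mul_one, ← pow_add, Nat.add_sub_cancel' h]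
  have h := S0243.result (F := F) rfl 3 (by norm_num)
  refine Nat.eq_of_mul_eq_mul_left (Nat.sub_pos_of_lt (Fintype.one_lt_card (α := F))) ?_
  rw [mul_left_comm, h, Finset.prod_congr rfl fun i _ => e _ i.2.le]
  simp [Fin.prod_univ_succ]
  ring

theorem card_u3 {F : Type} [Field F] [Fintype F] {q : ℕ} (hF : Fintype.card F = q ^ 2) :
    Nat.gcd 3 (q + 1) * Nat.card (PSU 3 F q) = q ^ 3 * ((q ^ 2 - 1) * (q ^ 3 + 1)) := by
  have h := S0280.result hF 3 (by norm_num)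
  refine Nat.eq_of_mul_eq_mul_left q.succ_pos ?_
  rw [mul_left_comm, h]
  simp [Finset.prod_range_succ]
  ring

theorem sv1 : Sv1Stmt.{u} := by
  intro S _ _ _ h1 h2 h
  rcases h with ⟨F, ho, -, ⟨e⟩⟩ | ⟨F, ho, ⟨e⟩⟩ | ⟨F, q, hq, ho, ⟨e⟩⟩ | ⟨F, hq, ⟨e⟩⟩ | ⟨⟨e⟩⟩ | ⟨⟨e⟩⟩ <;>
    rw [Nat.card_congr e.toEquiv] at h1 h2
  · exact l2 ho (H28.card_PSL2 rfl) h1 h2
  · exact l3 (.inl ho) (.inl rfl) card_l3 h1 h2 fun h => by rw [h] at ho; exact absurd ho (by decide)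
  · exact l3 (.inl ho) (.inr rfl) (card_u3 hq) h1 h2 fun h => by rw [h]; rfl
  · exact l3 (.inr rfl) (.inr rfl) (card_u3 (q := 4) hq) h1 h2 fun _ => rfl
  · rw [nat_card_alternatingGroup] at h1
    revert h1
    simp only [Nat.card_eq_fintype_card, Fintype.card_fin]
    decide
  · rw [H74.card_M11] at h1
    revert h1
    decide

end Cfsg.Agent.H20.RfSv1
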