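import Cfsg.Agent.H25.UGDefs
import Cfsg.Agent.H16.SgUc

/-! The torus part of order `t` is a Hall subgroup; the local data (project UG, piece UC). -/

set_option autoImplicit false

namespace Cfsg.Agent.H20.UgUc

open Cfsg Module Subgroup Cfsg.Agent.H77.Sg Cfsg.Agent.H16.SgUc

universe u

theorem uc : H25.UG.UcStmt.{u} := by
  intro F K _ _ _ _ _ σ B q R t X c
  have k := H51.SgKit.kit F K (c.rk ▸ (by norm_num : Nat.Prime 7))
  have : Finite (K ≃ₗ[F] K) := Finite.of_injective _ DFunLike.coe_injective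
  have cop : t.Coprime (Nat.card F - 1) := by
    rw [Nat.card_eq_fintype_card, c.st.card]; exact c.cop2
  have mem : ∀ a : Kˣ, mulH F K a ∈ X →
      ∃ (d : F) (s : Kˣ), s ^ t = 1 ∧ (a : K) = d • (s : K) := fun a ha => by
    obtain ⟨z, hz, s, hs, rfl⟩ := (c.mem a).1 ha
    obtain ⟨d, -, hd⟩ := c.zE z hz
    exact ⟨d, s, hs, by rw [Units.val_mul, hd, Algebra.smul_def]⟩
  have pw : ∀ a, mulH F K a ∈ X → (a ^ (Nat.card F - 1)) ^ t = 1 := fun a ha => by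
    obtain ⟨d, s, h1, h2⟩ := mem a ha
    rw [smul_pow_card h2, ← pow_mul, mul_comm, pow_mul, h1, one_pow]
  have cm : ∀ {g : K ≃ₗ[F] K} {s : Kˣ} {m : ℕ}, m.Coprime (Nat.card F - 1) → s ^ m = 1 →
      mulH F K s ≠ 1 → g * mulH F K s = mulH F K s * g → ∃ a, mulH F K a = g :=
    fun {g s m} h1 h2 h3 h4 => (k.cent g s (k.ns s m h1 h2 fun e => h3 (by rw [e, map_one]))
      (LinearEquiv.congr_fun h4)).imp fun _ => Eq.symm
  refine ⟨Nat.coprime_of_dvd fun l hl h1 h2 => ?_, fun Y hPY hYX => ?_⟩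
  · have := Fact.mk hl
    obtain ⟨⟨_, s, hs, rfl⟩, h3⟩ := exists_prime_orderOf_dvd_card' (G := Pt F K t) l (by
      rwa [c.cardPt])
    rw [← orderOf_coe] at h3
    have h4 : mulH F K s ≠ 1 := fun e => hl.one_lt.ne (by rw [← h3]; simp [e])
    have h5 : mulH F K s ∈ X := (c.mem s).2 ⟨1, one_mem _, s, hs, (one_mul _).symm⟩
    obtain ⟨S, hS⟩ := (IsPGroup.of_card (p := l) (G := zpowers (⟨_, h5⟩ : X)) (n := 1) (by
      rw [Nat.card_zpowers, ← orderOf_coe, pow_one]; exact h3)).exists_le_sylow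
    have h6 := hS (mem_zpowers _)
    have : Nontrivial S := ⟨⟨_, h6⟩, 1, fun e => h4 (congrArg (fun x : S => (x.1 : K ≃ₗ[F] K)) e)⟩
    have := S.2.center_nontrivial
    obtain ⟨⟨z, hz⟩, hz1⟩ := exists_ne (1 : center S)
    have h7 : ∀ g : S, (g.1 : K ≃ₗ[F] K) * z.1 = z.1 * g.1 := fun g =>
      congrArg (fun x : S => (x.1 : K ≃ₗ[F] K)) (mem_center_iff.1 hz g)
    have h8 : ∀ (g : S) a, mulH F K a = g.1 → ∃ j, a ^ l ^ j = 1 := fun g a e => by
      obtain ⟨j, hj⟩ := S.2 g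
      refine ⟨j, mulH_injective (F := F) ?_⟩
      rw [map_pow, e, map_one]
      exact congrArg (fun x : S => (x.1 : K ≃ₗ[F] K)) hj
    have h9 : ∀ j, (l ^ j).Coprime (Nat.card F - 1) := fun j =>
      (cop.coprime_dvd_left h1).pow_left j
    obtain ⟨a, ha⟩ := cm cop hs h4 (h7 ⟨_, h6⟩).symm
    obtain ⟨j, hj⟩ := h8 z a ha
    refine S.not_dvd_index (h2.trans (index_dvd_of_le fun g hg => ?_))
    obtain ⟨b, hb⟩ := cm (g := g.1) (h9 j) hj
      (fun e => hz1 (Subtype.ext (Subtype.ext (Subtype.ext (ha.symm.trans e))))) (ha ▸ h7 ⟨g, hg⟩)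
    obtain ⟨i, hi⟩ := h8 ⟨g, hg⟩ b hb
    refine ⟨b, ?_, hb⟩
    have e1 : (b ^ t) ^ (Nat.card F - 1) = 1 := by
      rw [← pow_mul, mul_comm, pow_mul, pw b (hb ▸ g.2)]
    have e2 : (b ^ t) ^ l ^ i = 1 := by rw [← pow_mul, mul_comm, pow_mul, hi, one_pow]
    exact (pow_eq_one_iff_of_coprime (h9 i)).1 ⟨e2, e1⟩
  obtain ⟨N, hN, hi⟩ := k.sub
  set P := (Pt F K t).subgroupOf Y
  set C := (mulH F K).range.subgroupOf Y with hC
  have hPC : P ≤ C := fun _ ⟨s, _, e⟩ => ⟨s, e⟩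
  have cc : ∀ a ∈ C, ∀ b ∈ C, a * b = b * a := by
    rintro ⟨_, h1⟩ ⟨a, rfl⟩ ⟨_, h2⟩ ⟨b, rfl⟩
    exact Subtype.ext ((Commute.all a b).map (mulH F K))
  have hp : ∀ a ∈ C, a ^ (Nat.card F - 1) ∈ P := by
    rintro ⟨_, h1⟩ ⟨a, rfl⟩
    exact ⟨_, pw a (hYX h1), map_pow _ _ _⟩
  have ht : ∀ x ∈ C, x ^ (Nat.card F - 1) = 1 ↔ ∃ d : F, ∀ y, (x : K ≃ₗ[F] K) y = d • y := by
    rintro ⟨_, hx⟩ ⟨a, rfl⟩
    have h0 : ∀ b : Kˣ, a ^ (Nat.card F - 1) = b →
        ((⟨mulH F K a, hx⟩ : Y) ^ (Nat.card F - 1) = 1 ↔ b = 1) := fun b hb => by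
      rw [Subtype.ext_iff, coe_pow, ← map_pow, hb, coe_one, ← map_one (mulH F K),
        mulH_injective.eq_iff]
    refine ⟨fun h => ?_, fun ⟨d, hd⟩ => ?_⟩
    · obtain ⟨d, s, h1, h2⟩ := mem a (hYX hx)
      obtain rfl : s = 1 :=
        (pow_eq_one_iff_of_coprime cop).1 ⟨h1, (h0 _ (smul_pow_card h2)).1 h⟩
      exact ⟨d, fun y => by rw [mulH_apply, h2, smul_mul_assoc, Units.val_one, one_mul]⟩
    · refine (h0 _ (smul_pow_card (s := 1) (c := d) ?_)).2 (one_pow _)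
      rw [Units.val_one, ← hd, mulH_apply, mul_one]
  have hNC : N.subgroupOf Y ≤ normalizer (C : Set Y) := fun g hg => mem_normalizer_fintype (by
    rintro ⟨_, h1⟩ ⟨a, rfl⟩
    exact (conj_mul ((hN _).1 hg) a).imp fun _ => Eq.symm)
  refine ⟨⟨P, C, N.subgroupOf Y, hPC, ?_, fun a ha x hx => cc a ha x (hPC hx),
    MonoidHom.mk' (fun a => ⟨_, hp a a.2⟩) fun a b => Subtype.ext
      ((show Commute (a : Y) b from cc a a.2 b b.2).mul_pow _), fun y => ?_,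
    C.normalizerMonoidHom.comp (inclusion hNC), fun _ _ => rfl, fun g a h => ?_, ?_, ?_, ?_⟩,
    rfl, rfl, fun g => hN g, ?_, fun x => Subtype.ext_iff.trans (ht x x.2)⟩
  · rintro ⟨_, h1⟩ ⟨a, rfl⟩
    exact (hN _).2 fun b => ⟨b, fun x => mul_left_comm _ _ _⟩
  · have h1 : (Nat.card P).Coprime (Nat.card F - 1) := by
      rw [Nat.card_congr (subgroupOfEquivOfLe hPY).toEquiv, c.cardPt]
      exact cop
    exact (powCoprime h1).surjective y
  · refine Subtype.ext ?_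
    change ((g : Y) * a * (g : Y)⁻¹) ^ _ = 1
    rw [conj_pow, show (a : Y) ^ _ = 1 from congrArg Subtype.val h, mul_one, mul_inv_cancel]
  · rintro x h g ⟨b, hb⟩
    obtain ⟨a, ha⟩ : ∃ a, mulH F K a = x.1.1 := x.2
    refine (hN _).2 (k.nm_of g a b (fun e => h ?_) (app_of_conj (ha ▸ hb.symm)))
    obtain ⟨d, hd⟩ := Submodule.mem_span_singleton.1 e
    refine Subtype.ext (Subtype.ext ?_)
    change x.1.1 ^ _ = 1
    rw [← ha, ← map_pow, smul_pow_card (s := 1) hd.symm, one_pow, map_one]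
  · rintro g hg ⟨_, h1⟩ ⟨s, hs, rfl⟩
    obtain ⟨b, hb⟩ := conj_mul ((hN _).1 hg) s
    refine ⟨b, mulH_injective (F := F) ?_, hb.symm⟩
    change mulH F K (b ^ t) = _
    rw [map_pow, ← hb, conj_pow, ← map_pow, show s ^ t = 1 from hs, map_one, mul_one,
      mul_inv_cancel]
  · rintro g - ⟨_, h1⟩ ⟨s, hs, rfl⟩ h2 h3
    exact cm cop hs (fun e => h2 (Subtype.ext e)) (congrArg Subtype.val h3)
  · change C.relIndex (N.subgroupOf Y) ∣ 7
    have hle : (mulH F K).range ≤ N := by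
      rintro _ ⟨a, rfl⟩
      exact (hN _).2 fun b => ⟨b, fun x => mul_left_comm _ _ _⟩
    have : ((mulH F K).range.subgroupOf N).Normal := (normal_subgroupOf_iff hle).2 (by
      rintro _ g ⟨a, rfl⟩ hg
      exact (conj_mul ((hN _).1 hg) a).imp fun _ => Eq.symm)
    rw [← inf_subgroupOf_right N, hC, relIndex_subgroupOf inf_le_right, ← c.rk,
      ← relIndex_subgroupOf (L := N) inf_le_left]
    exact (relIndex_dvd_index_of_normal _ _).trans hi

end Cfsg.Agent.H20.UgUc
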