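import Cfsg.Agent.H74.UVDefs

/-! Project UV, piece HOMA: an isometry of order dividing `q + 1` commuting with `x` is a scalar on
the perp of the fixed space of `x`. -/

set_option autoImplicit false

namespace Cfsg.Agent.H20.UvHoma

open Cfsg Module Polynomial Cfsg.Agent.H31 Cfsg.Agent.H74.UV
open Cfsg.Agent.H53.Uw (St fx mem_fx)

universe u

variable {E V : Type u} [Field E] [AddCommGroup V] [Module E V]

theorem prod_eq [Fintype E] :
    (∏ a : E, (X - C a) : E[X]) = X ^ Fintype.card E - X := by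
  classical
  have h1 := Fintype.one_lt_card (α := E)
  have h2 : (X ^ Fintype.card E - X : E[X]).Monic :=
    monic_X_pow_sub (by rw [degree_X]; exact_mod_cast h1)
  have h3 := prod_multiset_X_sub_C_of_monic_of_roots_card_eq h2 (by
    rw [FiniteField.roots_X_pow_card_sub_X, FiniteField.X_pow_card_sub_X_natDegree_eq _ h1]; rfl)
  rwa [FiniteField.roots_X_pow_card_sub_X] at h3

theorem exists_eig [Fintype E] (g : Module.End E V) (hg : g ^ Fintype.card E = g)
    (W : Submodule E V) (hW : ∀ u ∈ W, g u ∈ W) (h0 : W ≠ ⊥) :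
    ∃ (a : E) (u : V), u ∈ W ∧ u ≠ 0 ∧ g u = a • u := by
  classical
  by_contra! H
  have key : ∀ s : Finset E, ∀ u ∈ W, aeval g (∏ a ∈ s, (X - C a)) u = 0 → u = 0 := by
    intro s
    induction s using Finset.induction_on with
    | empty => intro u _ h; simpa using h
    | insert a s ha ih =>
      intro u hu h
      rw [Finset.prod_insert ha, mul_comm, map_mul, Module.End.mul_apply] at h
      have e : aeval g (X - C a) u = g u - a • u := by simp
      rw [e] at h
      by_contra hne
      exact H a u hu hne (sub_eq_zero.1 (ih _ (W.sub_mem (hW u hu) (W.smul_mem a hu)) h))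
  refine h0 (eq_bot_iff.2 fun u hu => key Finset.univ u hu ?_)
  rw [prod_eq, map_sub, map_pow, aeval_X, hg, sub_self, LinearMap.zero_apply]

theorem pow_apply (g : Module.End E V) (a : E) (v : V)
    (h : g (g v - a • v) = a • (g v - a • v)) (n : ℕ) :
    (g ^ (n + 1)) v = a ^ (n + 1) • v + (((n + 1 : ℕ) : E) * a ^ n) • (g v - a • v) := by
  induction n with
  | zero => simp
  | succ n ih =>
    rw [pow_succ' g, Module.End.mul_apply, ih, map_add, map_smul, map_smul, h]
    push_cast
    module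

theorem homa (h1 : Gl1Stmt.{u}) : HomaStmt.{u} := by
  intro E V _ _ _ _ _ σ B q l r st rk hl hl5 hlq hr x hx ox g hg gr gx
  obtain ⟨U₁, U₂, f1, -, -, t1, t2, top, orth, -, -, uniq⟩ :=
    h1 E V σ B q l st rk hl hl5 hlq x hx ox
  have : FiniteDimensional E V := Module.Finite.of_finite
  have hB := st.herm
  have cq := Fintype.one_lt_card (α := E)
  obtain ⟨N, hN⟩ : ∃ N, Fintype.card E = N + 1 := ⟨_, (Nat.sub_add_cancel cq.le).symm⟩
  set W := perp B (fx x) with hW
  have dW : finrank E W = 10 := by rw [hB.finrank_perp, rk, f1]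
  have gq : g ^ (q + 1) = 1 := by obtain ⟨k, hk⟩ := hr; rw [hk, pow_mul, gr, one_pow]
  set G : Module.End E V := (g : V →ₗ[E] V) with hG
  have Gp : ∀ n : ℕ, ((g ^ n : V ≃ₗ[E] V) : V →ₗ[E] V) = G ^ n := fun n =>
    map_pow (LinearEquiv.automorphismGroup.toLinearMapMonoidHom (R := E) (M := V)) g n
  have Gq : G ^ (q + 1) = 1 := by rw [← Gp, gq]; rfl
  have Gc : G ^ Fintype.card E = G := by
    obtain ⟨k, rfl⟩ : ∃ k, q = k + 1 := ⟨q - 1, by
      rcases q with _ | q
      · rw [st.card] at cq; omega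
      · rfl⟩
    rw [st.card, show (k + 1) ^ 2 = (k + 1 + 1) * k + 1 by ring, pow_succ, pow_mul, Gq, one_pow,
      one_mul]
  have xg : ∀ u, x (g u) = g (x u) := fun u => (LinearEquiv.congr_fun gx.eq u).symm
  have gW : ∀ u ∈ W, g u ∈ W := fun u hu w hw => by
    have e : g.symm w ∈ fx x := mem_fx.2 (g.injective (by
      rw [← xg, g.apply_symm_apply, mem_fx.1 hw]))
    rw [← g.apply_symm_apply w, hg]
    exact hu _ e
  have xW : ∀ u ∈ W, x u ∈ W := fun u hu w hw => by
    rw [← mem_fx.1 hw, hx]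
    exact hu _ hw
  have top' : fx x ⊔ W = ⊤ := eq_top_iff.2 (by
    rw [← top, sup_assoc]
    exact sup_le_sup_left (fun u hu w hw => orth w hw u hu) _)
  have zero : ∀ u ∈ W, (∀ v ∈ W, B u v = 0) → u = 0 := fun u hu h => hB.nondeg u fun y => by
    obtain ⟨w, hw, v, hv, rfl⟩ := Submodule.mem_sup.1 (top' ▸ Submodule.mem_top (x := y))
    rw [map_add, h v hv, hB.flip_zero (hu w hw), add_zero]
  have small : ∀ S S' : Submodule E V, S ≤ W → W ≤ S ⊔ S' → (∀ u ∈ S, ∀ v ∈ S', B u v = 0) →
      (∀ u ∈ S, x u ∈ S) → finrank E S ≤ 5 → S = ⊥ := fun S S' le sup ort inv rk5 => by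
    by_contra hne
    have ti : TotIso B S := by
      rcases uniq S inv (eq_bot_iff.2 fun u hu => zero u (le hu.1) fun v hv => hv u hu.2) hne rk5
        with rfl | rfl
      exacts [t1, t2]
    refine hne (eq_bot_iff.2 fun u hu => zero u (le hu) fun v hv => ?_)
    obtain ⟨s, hs, s', hs', rfl⟩ := Submodule.mem_sup.1 (sup hv)
    rw [map_add, ti u hu s hs, ort u hu s' hs', add_zero]
  obtain ⟨a, u₀, hu₀, ne₀, e₀⟩ := exists_eig G Gc W gW fun e => by rw [e, finrank_bot] at dW; omega
  have ha : a * σ a = 1 := by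
    have e1 : ∀ n : ℕ, (G ^ n) u₀ = a ^ n • u₀ := fun n => by
      induction n with
      | zero => simp
      | succ n ih => rw [pow_succ' G, Module.End.mul_apply, ih, map_smul, e₀, smul_smul, pow_succ]
    have e2 := e1 (q + 1)
    rw [Gq, Module.End.one_apply] at e2
    rw [st.pow, ← pow_succ']
    exact (smul_left_injective E ne₀ ((one_smul E u₀).trans e2)).symm
  let f : V →ₗ[E] V := G - a • LinearMap.id
  have fa : ∀ u, f u = g u - a • u := fun _ => rfl
  have fW : W.map f ≤ W := by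
    rintro _ ⟨u, hu, rfl⟩
    exact W.sub_mem (gW u hu) (W.smul_mem a hu)
  have dim : finrank E (W.map f) + finrank E (W ⊓ LinearMap.ker f : Submodule E V) = 10 := by
    have := LinearMap.finrank_range_add_finrank_ker (f.domRestrict W)
    rwa [LinearMap.range_domRestrict, LinearMap.ker_domRestrict,
      ← Submodule.finrank_map_subtype_eq W, Submodule.map_comap_subtype, dW] at this
  have disj : W.map f ⊓ (W ⊓ LinearMap.ker f) = ⊥ := eq_bot_iff.2 (by
    rintro _ ⟨⟨v, -, rfl⟩, -, h⟩
    have h' : G (G v - a • v) = a • (G v - a • v) := sub_eq_zero.1 h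
    have e := pow_apply G a v h' N
    rw [← hN, Gc, FiniteField.pow_card, FiniteField.cast_card_eq_zero, zero_mul, zero_smul,
      add_zero] at e
    exact sub_eq_zero.2 e)
  have sup : W.map f ⊔ (W ⊓ LinearMap.ker f) = W := by
    refine Submodule.eq_of_le_of_finrank_eq (sup_le fW inf_le_left) ?_
    have := Submodule.finrank_sup_add_finrank_inf_eq (W.map f) (W ⊓ LinearMap.ker f)
    rw [disj, finrank_bot] at this
    omega
  have ort : ∀ u ∈ W ⊓ LinearMap.ker f, ∀ v ∈ W.map f, B u v = 0 := by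
    rintro u ⟨-, hu⟩ _ ⟨v, -, rfl⟩
    have e : g u = a • u := sub_eq_zero.1 hu
    have e1 := hg u v
    rw [e, smul_left] at e1
    rw [fa, map_sub, smul_right, ← e1, ← mul_assoc, ha, one_mul, sub_self]
  have fxc : ∀ u, f (x u) = x (f u) := fun u => by rw [fa, fa, map_sub, map_smul, xg]
  refine ⟨a, ha, fun u hu => ?_⟩
  rcases le_or_gt (finrank E (W.map f)) 5 with k | k
  · have := small _ _ fW sup.ge (fun u hu v hv => hB.flip_zero (ort v hv u hu)) (by
      rintro _ ⟨v, hv, rfl⟩
      exact ⟨x v, xW v hv, fxc v⟩) k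
    exact sub_eq_zero.1 ((Submodule.mem_bot E).1 (this ▸ Submodule.mem_map_of_mem (f := f) hu))
  · have := small _ _ inf_le_left (sup.ge.trans (sup_comm _ _).le) ort (fun v hv =>
      ⟨xW v hv.1, (fxc v).trans (by rw [show f v = 0 from hv.2, map_zero])⟩) (by omega)
    exact absurd ((Submodule.mem_bot E).1 (this ▸ (⟨hu₀, sub_eq_zero.2 e₀⟩ :
      u₀ ∈ W ⊓ LinearMap.ker f))) ne₀

end Cfsg.Agent.H20.UvHoma
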